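import Cfsg.Agent.H2.MinU.Odd.Five
import Cfsg.Agent.H2.MinU.High
import Cfsg.Agent.H2.MinU.Four.Final

/-!
The minimal index of `PSU n` for odd `n ≥ 5`.
-/

set_option autoImplicit false

namespace Cfsg.Agent.H2.MinU

open Matrix MulAction
open scoped Pointwise

variable {F : Type*} [Field F] [Fintype F] {q : ℕ}

/-- The lower bound in odd dimension. -/
theorem su_odd_bound (hF : Fintype.card F = q ^ 2) : ∀ j : ℕ,
    ∀ H : Subgroup (Cfsg.SU (2 + (3 + 2 * j)) F q), H ≠ ⊤ → pts q (2 + (3 + 2 * j)) ≤ H.index := by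
  obtain ⟨D⟩ := exists_dat hF
  have hq := H3.two_le_q hF
  intro j
  induction j with
  | zero =>
    intro H hH
    exact five_bound (D := D) (Ω := Cfsg.SU (2 + 3) F q ⧸ H) (Subgroup.one_lt_index_of_ne_top hH)
  | succ j ih =>
    rw [show 3 + 2 * (j + 1) = 2 + (3 + 2 * j) by ring]
    refine high_step hF (m := 2 + (3 + 2 * j)) (by omega) (fun _ => by omega) ih ?_ ?_ ?_
    · rw [add_comm 2 (2 + (3 + 2 * j)), pts_succ_succ]
      set n := 2 + (3 + 2 * j) with hn
      have hP : pts q n = 1 + q ^ 2 * pts q (3 + 2 * j) + q ^ (2 * (3 + 2 * j) + 1) := by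
        rw [hn, add_comm 2, pts_succ_succ]
      have hbig : q ^ (2 * (3 + 2 * j) + 1) + 1 ≤ pts q n := by omega
      have hsm := pts_small hq n (by omega)
      calc 1 + q ^ 2 * pts q n + q ^ (2 * n + 1) ≤ q ^ (2 * n) + q ^ (2 * n + 1) := by omega
        _ ≤ (q ^ (2 * (3 + 2 * j) + 1) + 1) * q ^ (n + 1) := by
          rw [add_mul, one_mul, ← pow_add]
          have h4 : q ^ (2 * n + 1) * 2 ≤ q ^ (2 * (3 + 2 * j) + 1 + (n + 1)) := by
            refine le_trans (Nat.mul_le_mul_left _ hq) ?_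
            rw [← pow_succ]
            exact Nat.pow_le_pow_right (by omega) (by omega)
          have h5 : q ^ (2 * n) ≤ q ^ (2 * n + 1) := Nat.pow_le_pow_right (by omega) (by omega)
          omega
        _ ≤ _ := Nat.mul_le_mul_right _ hbig
    · set n := 2 + (3 + 2 * j) with hn
      have h1 : q ^ (2 + n) ≤ pts q n := by
        rw [show pts q n = 1 + q ^ 2 * pts q (3 + 2 * j) + q ^ (2 * (3 + 2 * j) + 1) by
          rw [hn, add_comm 2, pts_succ_succ]]
        have : q ^ (2 + n) ≤ q ^ (2 * (3 + 2 * j) + 1) := Nat.pow_le_pow_right (by omega) (by omega)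
        omega
      refine h1.trans ((Nat.le_mul_of_pos_left _ ?_).trans (Nat.le_succ _))
      have := Nat.pow_le_pow_left hq 2
      omega
    · intro C h0 h1 hC
      rw [mul_comm (q ^ 2)]
      exact Nat.mul_le_mul (le_card_orbit hF (by omega) ih h0 h1) hC

/-- The minimal index of `PSU n` in odd dimension at least `5`. -/
theorem psu_odd_min (hF : Fintype.card F = q ^ 2) (n : ℕ) (hn : 5 ≤ n) (hodd : Odd n) :
    (∀ H : Subgroup (Cfsg.PSU n F q), H ≠ ⊤ →
        (q ^ n + 1) * (q ^ (n - 1) - 1) / (q ^ 2 - 1) ≤ H.index) ∧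
      ∃ H : Subgroup (Cfsg.PSU n F q),
        H.index = (q ^ n + 1) * (q ^ (n - 1) - 1) / (q ^ 2 - 1) := by
  obtain ⟨D⟩ := exists_dat hF
  have hq := H3.two_le_q hF
  obtain ⟨j, rfl⟩ : ∃ j, n = 2 + (3 + 2 * j) := by
    obtain ⟨a, rfl⟩ := hodd
    exact ⟨a - 2, by omega⟩
  have e : (q ^ (2 + (3 + 2 * j)) + 1) * (q ^ (2 + (3 + 2 * j) - 1) - 1) / (q ^ 2 - 1) =
      pts q (2 + (3 + 2 * j)) := by
    have h2 : 1 ≤ q ^ 2 := Nat.one_le_pow _ _ (by omega)
    refine Nat.div_eq_of_eq_mul_right (by have := Nat.pow_le_pow_left hq 2; omega) ?_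
    have hP := pts_int q (4 + 2 * j)
    rw [show (2 + (3 + 2 * j)) - 1 = 4 + 2 * j by omega,
      show 2 + (3 + 2 * j) = 4 + 2 * j + 1 by ring]
    rw [(show Even (4 + 2 * j) from ⟨2 + j, by ring⟩).neg_one_pow] at hP
    zify [h2, Nat.one_le_pow (4 + 2 * j) q (by omega)]
    linear_combination -hP
  rw [e]
  refine psu_min _ (su_odd_bound hF j) ⟨pst D (3 + 2 * j), ?_, index_pst D (by omega)⟩
  intro g hg
  obtain ⟨l, hl⟩ := (H3.mem_center_SU_iff hF (by omega) g).mp hg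
  refine ⟨l, fun h => act_ne_zero g D.p_ne ?_, hl _⟩
  show (g.1 : Matrix (Fin (2 + (3 + 2 * j))) (Fin (2 + (3 + 2 * j))) F) *ᵥ _ = 0
  rw [hl, h, zero_smul]

end Cfsg.Agent.H2.MinU
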