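import Cfsg.Agent.H2.MinU.Odd.Three
import Cfsg.Agent.H2.MinU.Four.Moved
import Cfsg.Agent.H2.MinU.Regular
import Cfsg.Agent.H2.MinU.Geom

/-!
The minimal degree of `SU 5`.
-/

set_option autoImplicit false

namespace Cfsg.Agent.H2.MinU

open Matrix MulAction
open scoped Pointwise

variable {F : Type*} [Field F] [Fintype F] {q : ℕ}

local notation "⟪" u ", " v "⟫" => Cfsg.hermForm _ F q u v

/-- No three independent pairwise orthogonal isotropic vectors in five dimensions. -/
theorem no_iso_three (hF : Fintype.card F = q ^ 2) {v : Fin 3 → Fin (2 + 3) → F}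
    (hli : LinearIndependent F v) (h : ∀ i j, ⟪v i, v j⟫ = 0) : False := by
  let f : (Fin (2 + 3) → F) →ₗ[F] (Fin 3 → F) :=
    { toFun := fun s i => ⟪s, v i⟫
      map_add' := fun s t => funext fun i => hadd_l hF s t (v i)
      map_smul' := fun c s => funext fun i => hsmul_l hF c s (v i) }
  have hsurj : LinearMap.range f = ⊤ := by
    refine LinearMap.range_eq_top.mpr fun b => ?_
    obtain ⟨s, hs⟩ := (H3.isHerm_hermB hF (2 + 3)).exists_values hli fun i => b i ^ q
    refine ⟨s, funext fun i => ?_⟩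
    show ⟪s, v i⟫ = b i
    rw [← hswap hF (v i) s, show ⟪v i, s⟫ = b i ^ q from hs i, qq hF]
  have e := LinearMap.finrank_range_add_finrank_ker f
  rw [hsurj, finrank_top, Module.finrank_fin_fun, Module.finrank_fin_fun] at e
  have hle : Submodule.span F (Set.range v) ≤ LinearMap.ker f := Submodule.span_le.mpr (by
    rintro _ ⟨i, rfl⟩
    exact funext fun j => h i j)
  have := Submodule.finrank_mono hle
  rw [finrank_span_eq_card hli, Fintype.card_fin] at this
  omega

/-- An involution with a small image lies in the radical of some point. -/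
theorem invol_mem_radical_gen {m : ℕ} (hm : 1 ≤ m) (D : Dat F q) (h2 : (2 : F) = 0) {g : Cfsg.SU (2 + m) F q}
    (hgg : g * g = 1) (hg1 : g ≠ 1)
    (hrank : ∀ a b c, ¬ LinearIndependent F ![act g a + a, act g b + b, act g c + c]) :
    ∃ k : Cfsg.SU (2 + m) F q, k⁻¹ * g * k ∈ Qg D m := by
  have hF := D.hF
  have hneg : ∀ u : Fin (2 + m) → F, -u = u := fun u => funext fun i => by
    simp only [Pi.neg_apply]; linear_combination -(u i) * h2
  have hfneg : ∀ a : F, -a = a := fun a => by linear_combination -a * h2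
  set d : (Fin (2 + m) → F) → (Fin (2 + m) → F) := fun u => act g u + u with hd
  have hdd : ∀ u, act g (d u) = d u := fun u => by
    simp only [hd, act_add]
    rw [← act_mul, hgg, act_one]; exact add_comm _ _
  have hsym : ∀ u v, ⟪d u, v⟫ = ⟪u, d v⟫ := by
    intro u v
    have e : ⟪u, act g v⟫ = ⟪act g u, v⟫ := by
      rw [← form_act g u (act g v), ← act_mul g g, hgg, act_one]
    simp only [hd, hadd_l hF, hadd_r hF, e]
  have hiso : ∀ u v, ⟪d u, d v⟫ = 0 := by
    intro u v
    have e1 : ⟪act g u, act g v⟫ = ⟪u, v⟫ := form_act g u v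
    have e2 : ⟪u, act g v⟫ = ⟪act g u, v⟫ := by
      rw [← form_act g u (act g v), ← act_mul g g, hgg, act_one]
    simp only [hd, hadd_l hF, hadd_r hF, e1, e2]
    linear_combination (⟪u, v⟫ + ⟪act g u, v⟫) * h2
  have hlin : ∀ (c : F) u v, d (v + c • u) = d v + c • d u := fun c u v => by
    simp only [hd, act_add, act_smul]
    module
  -- a centre
  obtain ⟨u₀, hp0, hprop⟩ : ∃ u₀, d u₀ ≠ 0 ∧
      ∀ v, ⟪d u₀, v⟫ = 0 → ∃ c : F, d v = c • d u₀ := by
    obtain ⟨u₁, hu₁⟩ : ∃ u, d u ≠ 0 := by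
      by_contra h
      push Not at h
      refine hg1 (ext_act fun u => ?_)
      rw [act_one]
      have := h u
      rw [hd] at this
      exact (eq_neg_of_add_eq_zero_left this).trans (hneg u)
    by_cases hone : ∀ v, ∃ c : F, d v = c • d u₁
    · exact ⟨u₁, hu₁, fun v _ => hone v⟩
    push Not at hone
    obtain ⟨u₂, hu₂⟩ := hone
    have hind : ∀ c : F, d u₂ + c • d u₁ ≠ 0 := fun c e =>
      hu₂ c (by rw [eq_neg_of_add_eq_zero_left e, hneg])
    obtain ⟨u₀, hu₀, hb⟩ : ∃ u₀, d u₀ ≠ 0 ∧ ⟪d u₀, u₀⟫ = 0 := by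
      by_cases hb : ⟪d u₁, u₁⟫ = 0
      · exact ⟨u₁, hu₁, hb⟩
      set b₁₁ := ⟪d u₁, u₁⟫ with hb11
      set b₁₂ := ⟪d u₁, u₂⟫ with hb12
      set b₂₁ := ⟪d u₂, u₁⟫ with hb21
      set b₂₂ := ⟪d u₂, u₂⟫ with hb22
      have r1 : b₁₁ ^ q = b₁₁ := by rw [hb11, hswap hF, ← hsym]
      have r2 : b₂₂ ^ q = b₂₂ := by rw [hb22, hswap hF, ← hsym]
      have r3 : b₂₁ ^ q = b₁₂ := by rw [hb21, hb12, hswap hF, ← hsym]
      obtain ⟨t, ht⟩ := H3.exists_norm_eq hF (μ := (b₂₁ * b₁₂ / b₁₁ - b₂₂) / b₁₁) (by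
        rw [div_pow, qsub hF, div_pow, mul_pow, r1, r2, r3, show b₁₂ ^ q = b₂₁ by rw [← r3, qq hF]]
        ring)
      refine ⟨u₂ + (t - b₂₁ / b₁₁) • u₁, by rw [hlin]; exact hind _, ?_⟩
      rw [hlin, hadd_l hF, hadd_r hF, hadd_r hF, hsmul_l hF, hsmul_r hF, hsmul_l hF, hsmul_r hF,
        ← hb11, ← hb12, ← hb21, ← hb22, qsub hF, div_pow, r1, r3]
      have ht' : t * t ^ q = (b₂₁ * b₁₂ / b₁₁ - b₂₂) / b₁₁ := by rw [← pow_succ']; exact ht
      field_simp at ht' ⊢
      linear_combination ht'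
    refine ⟨u₀, hu₀, fun v hv => ?_⟩
    by_contra hne
    push Not at hne
    -- the image is spanned by two vectors
    have hli2 : LinearIndependent F ![d u₀, d v] := by
      rw [LinearIndependent.pair_iff' hu₀]
      exact fun a ha => hne a ha.symm
    have himg : ∀ w, d w ∈ Submodule.span F (Set.range ![d u₀, d v]) := by
      intro w
      by_contra hw
      refine hrank u₀ v w ?_
      · rw [Fintype.linearIndependent_iff]
        intro c hc
        rw [Fin.sum_univ_three] at hc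
        simp only [Matrix.cons_val_zero, Matrix.cons_val_one, Matrix.cons_val_two, Matrix.head_cons,
          Matrix.tail_cons] at hc
        have c2 : c 2 = 0 := by
          by_contra hne2
          refine hw ?_
          rw [show d w = (c 2)⁻¹ • (-(c 0 • d u₀ + c 1 • d v)) by
            rw [← eq_neg_of_add_eq_zero_right hc, smul_smul, inv_mul_cancel₀ hne2, one_smul]]
          refine Submodule.smul_mem _ _ (Submodule.neg_mem _ (Submodule.add_mem _ ?_ ?_)) <;>
            refine Submodule.smul_mem _ _ (Submodule.subset_span ?_)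
          · exact ⟨0, rfl⟩
          · exact ⟨1, rfl⟩
        rw [c2, zero_smul, add_zero] at hc
        obtain ⟨c0, c1⟩ := LinearIndependent.pair_iff.mp hli2 _ _ hc
        intro i
        fin_cases i <;> assumption
    -- then the centre would be orthogonal to everything
    obtain ⟨x, hx⟩ := H3.exists_hermForm_eq_one hF (q := q) hu₀
    have h0 : ⟪d x, u₀⟫ = 0 := by
      obtain ⟨a, b, e⟩ : ∃ a b : F, a • d u₀ + b • d v = d x := by
        have := himg x
        rw [Matrix.range_cons_cons_empty, Submodule.mem_span_pair] at this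
        exact this
      rw [← e, hadd_l hF, hsmul_l hF, hsmul_l hF, hb, hsym v u₀, hswap_zero hF hv, mul_zero, mul_zero,
        add_zero]
    rw [hsym] at h0
    exact one_ne_zero (α := F) (hx.symm.trans h0)
  obtain ⟨k, hk⟩ : d u₀ ∈ orbit (Cfsg.SU (2 + m) F q) (D.p m) := by
    rw [orbit_eq_class hF (by omega) D.p_ne (Or.inr (by omega))]
    exact ⟨hp0, (hiso u₀ u₀).trans D.p_iso.symm⟩
  change act k (D.p m) = d u₀ at hk
  refine ⟨k, ?_⟩
  set g' := k⁻¹ * g * k with hg'
  have hperp : ∀ u, ⟪u, D.p m⟫ = 0 → ∃ c : F, act g' u = u + c • D.p m := by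
    intro u hu
    have hku : ⟪d u₀, act k u⟫ = 0 := by
      rw [← hk, form_act]; exact hswap_zero hF hu
    obtain ⟨c, hc⟩ := hprop _ hku
    refine ⟨c, ?_⟩
    have e : act g (act k u) = act k u + c • d u₀ := by
      rw [← hc, hd]
      simp only
      rw [add_comm (act g (act k u)), ← add_assoc]
      have : act k u + act k u = 0 := by
        nth_rw 1 [← hneg (act k u)]; exact neg_add_cancel _
      rw [this, zero_add]
    rw [hg', act_mul, act_mul, e, act_add, act_smul, act_inv_act, ← hk, act_inv_act]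
  have hp : act g' (D.p m) = D.p m := by
    rw [hg', act_mul, act_mul, hk, hdd, ← hk, act_inv_act]
  set x := down (act g' (D.p' m)) with hx
  set α := ⟪act g' (D.p' m), D.p' m⟫ with hα
  have hdec : act g' (D.p' m) = α • D.p m + D.p' m + up x := by
    have e : ⟪act g' (D.p' m), D.p m⟫ = 1 := by
      nth_rw 1 [← hp]; rw [form_act, D.p'_p]
    conv_lhs => rw [D.decomp (act g' (D.p' m)), e, one_smul]
  have hok : OkW q x α := by
    have e := form_act g' (D.p' m) (D.p' m)
    rw [hdec, D.p'_iso] at e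
    simp only [hadd_l hF, hadd_r hF, hsmul_l hF, hsmul_r hF, D.p_iso, D.p'_iso, D.p_p', D.p'_p,
      D.p_up, D.up_p, D.p'_up, D.up_p', D.form_up, mul_zero, mul_one, add_zero, zero_add] at e
    rw [OkW]; linear_combination e
  have hup : ∀ w, act g' (up w) = up w + (-⟪w, x⟫) • D.p m := by
    intro w
    obtain ⟨c, hc⟩ := hperp (up w) (D.up_p w)
    have e := form_act g' (up w) (D.p' m)
    rw [hc, hdec, D.up_p'] at e
    simp only [hadd_l hF, hadd_r hF, hsmul_l hF, hsmul_r hF, D.p_iso, D.p_p', D.up_p', D.p_up, D.up_p,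
      D.form_up, mul_zero, mul_one, add_zero, zero_add] at e
    rw [hc, show c = -⟪w, x⟫ by linear_combination e]
  have : g' = El D x α := by
    refine ext_act fun u => ?_
    rw [D.decomp u, act_add, act_add, act_add, act_add, act_smul, act_smul, act_smul, act_smul, hp, hdec,
      hup, El, act_E hF (ok_of hok D), act_E hF (ok_of hok D), act_E hF (ok_of hok D)]
    simp only [D.p_iso, D.p'_p, D.p_up, D.p'_up, D.up_p, D.form_up, mul_zero, mul_one, zero_smul,
      one_smul, sub_zero, add_zero]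
    module
  rw [this]
  exact El_mem hok

/-- An involution lies in the radical of some point. -/
theorem invol_mem_radical (D : Dat F q) (h2 : (2 : F) = 0) {g : Cfsg.SU (2 + 3) F q}
    (hgg : g * g = 1) (hg1 : g ≠ 1) :
    ∃ k : Cfsg.SU (2 + 3) F q, k⁻¹ * g * k ∈ Qg D 3 := by
  have hiso : ∀ u v, ⟪act g u + u, act g v + v⟫ = 0 := by
    intro u v
    have e1 : ⟪act g u, act g v⟫ = ⟪u, v⟫ := form_act g u v
    have e2 : ⟪u, act g v⟫ = ⟪act g u, v⟫ := by
      rw [← form_act g u (act g v), ← act_mul g g, hgg, act_one]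
    simp only [hadd_l D.hF, hadd_r D.hF, e1, e2]
    linear_combination (⟪u, v⟫ + ⟪act g u, v⟫) * h2
  refine invol_mem_radical_gen (by norm_num) D h2 hgg hg1 fun a b c h => ?_
  refine no_iso_three D.hF h fun i j => ?_
  fin_cases i <;> fin_cases j <;> exact hiso _ _

variable {D : Dat F q} {Ω : Type*} [MulAction (Cfsg.SU (2 + 3) F q) Ω] [Finite Ω]

/-- A moved point has a regular orbit of the radical. -/
theorem moved_five (hN : Nat.card Ω < pts q (2 + 3)) {ω : Ω} (hω : ω ∉ fixT D 3 Ω) :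
    zS 3 D ω = ⊥ ∧ aS 3 D ω = ⊥ ∧ Nat.card (orbit (Qg D 3) ω) = q ^ 7 := by
  classical
  have hF := D.hF
  have hq := H3.two_le_q hF
  have hZ : zS 3 D ω ≠ skew D.hF := hω
  have : Finite (AddSubgroup F) := Finite.of_injective _ SetLike.coe_injective
  have : Finite (AddSubgroup (Fin 3 → F)) := Finite.of_injective _ SetLike.coe_injective
  rw [show pts q (2 + 3) = 1 + q ^ 2 * pts q 3 + q ^ 7 from pts_succ_succ q 3, pts_three] at hN
  have hinv : (scales D.hF (zS 3 D ω)).ncard * Nat.card (orbit (Cfsg.SU 3 F q) (aS 3 D ω)) * q ^ 7 ≤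
      Nat.card Ω * (Nat.card (zS 3 D ω) * Nat.card (aS 3 D ω)) :=
    invariants_bound (D := D) (m := 3) (by norm_num) ω
  have hAle : Nat.card (aS 3 D ω) ≤ q ^ 3 := card_aS_le D ω hZ
  set A := aS 3 D ω with hAdef
  set Z := zS 3 D ω with hZdef
  have hq5 : 4 * q ^ 5 ≤ q ^ 7 := by
    rw [show q ^ 7 = q ^ 2 * q ^ 5 by ring]; exact Nat.mul_le_mul_right _ (Nat.pow_le_pow_left hq 2)
  have hq25 : 8 * q ^ 2 ≤ q ^ 5 := by
    rw [show q ^ 5 = q ^ 3 * q ^ 2 by ring]; exact Nat.mul_le_mul_right _ (Nat.pow_le_pow_left hq 3)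
  have hNb : 1 + q ^ 2 * (q ^ 3 + 1) = 1 + q ^ 5 + q ^ 2 := by ring
  -- an excluded parameter group
  have key : ∀ k : ℕ, Z ≠ ⊥ → Nat.card A ≤ k → k ≤ Nat.card (orbit (Cfsg.SU 3 F q) A) → False := by
    intro k h0 hak hk
    obtain ⟨hs1, hs2⟩ := card_scales hF Z (zS_le ω) h0 hZ
    set z := Nat.card Z
    set a := Nat.card A
    have hz : 1 ≤ z := Nat.card_pos
    have ha : 1 ≤ a := Nat.card_pos
    have h1 : (z + 1) * a * q ^ 7 ≤ Nat.card Ω * (z * a) :=
      le_trans (Nat.mul_le_mul_right _ (Nat.mul_le_mul hs1 (hak.trans hk))) hinv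
    have h2 : (z + 1) * q ^ 7 ≤ Nat.card Ω * z := by
      refine Nat.le_of_mul_le_mul_right ?_ (show 0 < a from ha)
      calc (z + 1) * q ^ 7 * a = (z + 1) * a * q ^ 7 := by ring
        _ ≤ _ := h1
        _ = _ := by ring
    have h3 : Nat.card Ω * z ≤ (q ^ 5 + q ^ 2 + q ^ 7) * z := Nat.mul_le_mul_right _ (by omega)
    have h4 : 2 * z * (q ^ 5 + q ^ 2) ≤ q * (q ^ 5 + q ^ 2) := Nat.mul_le_mul_right _ hs2
    have h5 : q * (q ^ 5 + q ^ 2) ≤ q * (2 * q ^ 5) := Nat.mul_le_mul_left _ (by omega)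
    have h6 : q * (2 * q ^ 5) ≤ q ^ 2 * q ^ 5 := by
      calc q * (2 * q ^ 5) = (q * 2) * q ^ 5 := by ring
        _ ≤ (q * q) * q ^ 5 := Nat.mul_le_mul_right _ (Nat.mul_le_mul_left _ hq)
        _ = _ := by ring
    nlinarith
  have hA : A = ⊥ := by
    by_contra hA0
    by_cases h0 : Z = ⊥
    · have hfam := moved_family (D := D) (m := 3) hω Set.univ
      rw [Set.image_univ, ← hAdef, ← hZdef, show 2 * 3 + 1 = 7 from rfl, h0, AddSubgroup.card_bot,
        one_mul] at hfam
      have hk : Nat.card (orbit (Lev D 3) A) ≤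
          (Set.range fun g : Lev D 3 => (scale D.hF (cc g) (⊥ : AddSubgroup F), g • A)).ncard := by
        rw [Nat.card_coe_set_eq]
        refine le_trans (Set.ncard_le_ncard ?_ (Set.toFinite _))
          (Set.ncard_image_le (f := Prod.snd) (Set.toFinite _))
        rintro _ ⟨g, rfl⟩
        exact ⟨_, ⟨g, rfl⟩, rfl⟩
      have h1 := (Nat.mul_le_mul_right _ hk).trans
        (hfam.trans (Nat.mul_le_mul_right _ (Set.ncard_le_card _)))
      have h2 := Nat.mul_le_mul_right (q ^ 5) (lev_bound_three D A hA0 hAle)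
      rw [show Nat.card (orbit (Lev D 3) A) * q ^ 2 * q ^ 5 = Nat.card (orbit (Lev D 3) A) * q ^ 7 by ring,
        show Nat.card A * (q ^ 2 + 2) * q ^ 5 = (q ^ 7 + 2 * q ^ 5) * Nat.card A by ring] at h2
      have h3 := Nat.le_of_mul_le_mul_right (h2.trans h1) Nat.card_pos
      have h4 : 4 ≤ q ^ 2 := Nat.pow_le_pow_left hq 2
      omega
    · obtain ⟨-, hs2⟩ := card_scales hF Z (zS_le ω) h0 hZ
      have hz : 2 ≤ Nat.card Z := by
        have h1 : Nat.card Z ≠ 1 := fun h => h0 (AddSubgroup.eq_bot_of_card_eq _ h)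
        have h2 : 1 ≤ Nat.card Z := Nat.card_pos
        omega
      exact key _ h0 hAle (cube_le_orbit hF (by omega) hA0 hAle)
  have hZ0 : Z = ⊥ := by
    by_contra h0
    refine key 1 h0 (by rw [hA, AddSubgroup.card_bot]) ?_
    have : Nonempty (orbit (Cfsg.SU 3 F q) A) := ⟨⟨_, mem_orbit_self _⟩⟩
    exact Nat.card_pos
  refine ⟨hZ0, hA, ?_⟩
  have h := card_orbit_Q (D := D) (m := 3) ω
  rw [← hAdef, ← hZdef, hZ0, hA, AddSubgroup.card_bot, AddSubgroup.card_bot, mul_one, mul_one] at h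
  exact h

include D in
/-- The degree of a non-trivial transitive action of `SU 5`. -/
theorem five_bound [IsPretransitive (Cfsg.SU (2 + 3) F q) Ω] (hN2 : 2 ≤ Nat.card Ω) :
    pts q (2 + 3) ≤ Nat.card Ω := by
  classical
  by_contra hlt
  push Not at hlt
  have hF := D.hF
  have hq := H3.two_le_q hF
  have hq22 : 4 ≤ q ^ 2 := Nat.pow_le_pow_left hq 2
  have hP : pts q (2 + 3) = 1 + q ^ 2 * (q ^ 3 + 1) + q ^ 7 := by
    rw [show pts q (2 + 3) = 1 + q ^ 2 * pts q 3 + q ^ 7 from pts_succ_succ q 3, pts_three]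
  have hgeom : ∀ (p : Fin (2 + 3) → F) (ω : Ω), ¬ AllFix D.hF p ω := fun p ω hp => by
    have := geom_bound_gen (D := D) (m := 3) (by norm_num) (M := q ^ 3 + 1) (R := pts q (2 + 3)) 4 (fun d h => by omega)
      (fun A h0 hiso _ => by
        have hle := card_le_of_all_iso hF A hiso
        obtain ⟨v, hv, hv0⟩ : ∃ v ∈ A, v ≠ 0 := by
          by_contra h; push Not at h; exact h0 (eq_bot_iff.mpr fun v hv => by simp [h v hv])
        have h := orbit_le_cover (G := Cfsg.SU 3 F q) A hv hv0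
        rw [card_orbit_iso hF le_rfl hv0 (hiso v hv), pts_three, mul_comm] at h
        exact Nat.le_of_mul_le_mul_right (h.trans (Nat.mul_le_mul_left _ (Nat.sub_le_sub_right hle 1)))
          (by omega))
      le_rfl (by
        rw [mul_comm (q ^ 2 - 1), mul_assoc]
        refine Nat.mul_le_mul_left _ ?_
        have e : (q ^ 2 - 1) * (q ^ 3 + 1) + q ^ 3 + 1 = q ^ 5 + q ^ 2 := by
          zify [show 1 ≤ q ^ 2 by omega]; ring
        have h1 : 2 * q ^ 4 ≤ q ^ 5 := by rw [pow_succ' q 4]; exact Nat.mul_le_mul_right _ hq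
        have h2 : q ^ 3 ≤ q ^ 4 := Nat.pow_le_pow_right (by omega) (by norm_num)
        omega) hN2 hp
    omega
  obtain ⟨ω, hω⟩ : ∃ ω : Ω, ω ∉ fixT D 3 Ω := by
    by_contra h
    push Not at h
    obtain ⟨ω⟩ : Nonempty Ω := (Nat.card_pos_iff.mp (by omega)).1
    have h1 : Nat.card Ω ≤ 1 :=
      card_le_one_of_trans_fix hF (n := 2 + 3) (by omega) (by omega) ω fun v a hv0 hv ha => by
        obtain ⟨g, hg⟩ : ∃ g : Cfsg.SU (2 + 3) F q, g • D.p 3 = v := by
          have h1 : v ∈ orbit (Cfsg.SU (2 + 3) F q) (D.p 3) := by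
            rw [orbit_eq_class hF (by omega) D.p_ne (Or.inr (by omega))]
            exact ⟨hv0, hv.trans D.p_iso.symm⟩
          exact h1
        have h2 := TF.act hF D.p_iso (mem_fixT.mp (h (g⁻¹ • ω))) g
        rw [smul_inv_smul, ← smul_eq_act, hg] at h2
        exact h2 a ha
    omega
  have horb : ∀ w : Ω, w ∉ fixT D 3 Ω → orbit (Qg D 3) w ⊆ (fixT D 3 Ω)ᶜ ∧
      (orbit (Qg D 3) w).ncard = q ^ 7 := by
    intro w hw
    refine ⟨?_, by rw [← Nat.card_coe_set_eq]; exact (moved_five hlt hw).2.2⟩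
    rintro _ ⟨g, rfl⟩ (hg : zS 3 D _ = skew D.hF)
    exact hw ((zS_smul_Q w g.2).symm.trans hg)
  have hsmall : q ^ 2 * (q ^ 3 + 1) + 1 ≤ q ^ 7 := by
    have e : q ^ 2 * (q ^ 3 + 1) = q ^ 5 + q ^ 2 := by ring
    have h1 : 4 * q ^ 5 ≤ q ^ 7 := by
      rw [show q ^ 7 = q ^ 2 * q ^ 5 by ring]; exact Nat.mul_le_mul_right _ hq22
    have h2 : q ^ 2 ≤ q ^ 5 := Nat.pow_le_pow_right (by omega) (by norm_num)
    omega
  have hall : (fixT D 3 Ω)ᶜ = orbit (Qg D 3) ω := by
    refine Set.Subset.antisymm (fun w hw => ?_) (horb ω hω).1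
    by_contra hne
    have hd : Disjoint (orbit (Qg D 3) ω) (orbit (Qg D 3) w) := by
      rw [Set.disjoint_left]
      rintro x hx hx'
      exact hne (by rw [← orbit_eq_iff.mpr hx, orbit_eq_iff.mpr hx']; exact mem_orbit_self w)
    have h1 := Set.ncard_union_eq hd (Set.toFinite _) (Set.toFinite _)
    have h2 : (orbit (Qg D 3) ω ∪ orbit (Qg D 3) w).ncard ≤ Nat.card Ω := Set.ncard_le_card _
    rw [(horb ω hω).2, (horb w hw).2] at h1
    omega
  have hstr : (fixT D 3 Ω).ncard + q ^ 7 = Nat.card Ω := by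
    rw [← (horb ω hω).2, ← hall]
    exact Set.ncard_add_ncard_compl _
  rcases Nat.eq_zero_or_pos (fixT D 3 Ω).ncard with hx | hx
  · rw [hx, zero_add] at hstr
    have hfix : fixT D 3 Ω = ∅ := (Set.ncard_eq_zero (Set.toFinite _)).mp hx
    have hmv : ∀ w : Ω, w ∉ fixT D 3 Ω := fun w h => by rw [hfix] at h; exact h
    have hfree : ∀ (w : Ω), ∀ g ∈ Qg D 3, g • w = w → g = 1 := by
      rintro w _ ⟨x, t, hok, rfl⟩ hfixw
      obtain ⟨hZ0, hA0, -⟩ := moved_five hlt (hmv w)
      have hx0 : x ∈ aS 3 D w := ⟨t, hok, hfixw⟩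
      rw [hA0, AddSubgroup.mem_bot] at hx0
      subst hx0
      have ht : t + t ^ q = 0 := by simpa [OkW, hzero_l hF] using hok
      have ht0 : t ∈ zS 3 D w := ⟨ht, hfixw⟩
      rw [hZ0, AddSubgroup.mem_bot] at ht0
      rw [ht0, El_zero]
    rcases Nat.lt_or_ge q 3 with hq3 | hq3
    · obtain rfl : q = 2 := by omega
      have h20 : (2 : F) = 0 := by
        obtain ⟨p, f, hp, hc, -, hpq⟩ := H3.exists_q_eq_pow hF
        have : p = 2 := by
          rcases f with _ | f
          · simp at hpq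
          · exact ((Nat.prime_dvd_prime_iff_eq hp Nat.prime_two).mp ⟨p ^ f, by rw [hpq, pow_succ']⟩)
        subst this
        exact CharP.ofNat_eq_zero' F 2 2 dvd_rfl
      have hcard := (stabilizer (Cfsg.SU (2 + 3) F 2) ω).index_mul_card
      rw [index_stabilizer, orbit_eq_univ, Set.ncard_univ, ← hstr] at hcard
      have hG := H3.card_SU hF (n := 2 + 3) (by norm_num)
      rw [H3.card_GU hF, ← hcard] at hG
      simp only [Finset.prod_range_succ, Finset.prod_range_zero, Nat.reduceAdd, Nat.reduceMul,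
        Nat.reduceSub, Nat.reduceDiv, one_mul] at hG
      norm_num [parity_simps, -Nat.card_eq_fintype_card] at hG
      have heven : 2 ∣ Nat.card (stabilizer (Cfsg.SU (2 + 3) F 2) ω) := by
        have hG' : Nat.card (stabilizer (Cfsg.SU (2 + 3) F 2) ω) = 106920 := by
          change _ * (_ * Nat.card (stabilizer (Cfsg.SU (2 + 3) F 2) ω)) = _ at hG
          omega
        rw [hG']; norm_num
      haveI : Fact (Nat.Prime 2) := ⟨Nat.prime_two⟩
      obtain ⟨⟨g, hg⟩, hord⟩ := exists_prime_orderOf_dvd_card' 2 heven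
      rw [Subgroup.orderOf_mk] at hord
      have hgg : g * g = 1 := by have := pow_orderOf_eq_one g; rwa [hord, sq] at this
      have hg1 : g ≠ 1 := fun e => by rw [e, orderOf_one] at hord; omega
      obtain ⟨k, hk⟩ := invol_mem_radical D h20 hgg hg1
      have hfixk : (k⁻¹ * g * k) • (k⁻¹ • ω) = k⁻¹ • ω := by
        rw [mul_smul, smul_inv_smul, mul_smul, mem_stabilizer_iff.mp hg]
      have := hfree _ _ hk hfixk
      exact hg1 (by rwa [mul_eq_one_iff_eq_inv, mul_eq_left] at this)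
    · have htr : ∀ w w' : Ω, ∃ g ∈ Qg D 3, g • w = w' := by
        intro w w'
        have : orbit (Qg D 3) w = Set.univ := Set.eq_of_subset_of_ncard_le (Set.subset_univ _) (by
          rw [Set.ncard_univ, (horb w (hmv w)).2, hstr])
        obtain ⟨g, hg⟩ : w' ∈ orbit (Qg D 3) w := this ▸ Set.mem_univ w'
        exact ⟨g.1, g.2, hg⟩
      obtain ⟨c, δ, h1, h2, h3, h4⟩ := exists_scalars (F := F) hF hq3
      exact false_of_regular_scalars (a := 3) (b := 0) (D := D) (by omega) (by omega) c δ h1 h2 h3 h4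
        hfree htr hfix ω
  · obtain ⟨w, hw⟩ := (Set.ncard_pos (Set.toFinite _)).mp hx
    have hlow : q ^ 2 * (q ^ 3 + 1) ≤ (fixT D 3 Ω).ncard := by
      have hAt : aS 3 D w ≠ ⊤ := fun h => hgeom _ _ (allFix_of_aS_top hw h)
      have hfb : Nat.card (orbit (Cfsg.SU 3 F q) (aS 3 D w)) * q ^ (2 * 3) ≤
          (fixT D 3 Ω).ncard * Nat.card (aS 3 D w) := fix_bound (D := D) (m := 3) hw
      by_cases hA0 : aS 3 D w = ⊥
      · rw [hA0, AddSubgroup.card_bot, mul_one] at hfb
        have hk1 : 1 ≤ Nat.card (orbit (Cfsg.SU 3 F q) (⊥ : AddSubgroup (Fin 3 → F))) := by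
          have : Finite (AddSubgroup (Fin 3 → F)) := Finite.of_injective _ SetLike.coe_injective
          have : Nonempty (orbit (Cfsg.SU 3 F q) (⊥ : AddSubgroup (Fin 3 → F))) := ⟨⟨_, mem_orbit_self _⟩⟩
          exact Nat.card_pos
        refine le_trans ?_ ((Nat.le_mul_of_pos_left _ hk1).trans hfb)
        calc q ^ 2 * (q ^ 3 + 1) ≤ q ^ 2 * q ^ 4 := Nat.mul_le_mul_left _ (Nat.pow_lt_pow_right
              (by omega) (by norm_num))
          _ = q ^ (2 * 3) := by ring
      obtain ⟨p, f, hp, hc, -, hpq⟩ := H3.exists_q_eq_pow hF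
      haveI := Fact.mk hp
      obtain ⟨φ, hφ, -⟩ := exists_functional_at (p := p) (⊥ : AddSubgroup F) (x := (1 : F)) (by simp)
      let ψ : F →+ ZMod p := φ.comp (AddMonoidHom.mk' (fun t : F => t + t ^ q) fun a b => by
        rw [qadd hF]; ring)
      have hψa : ∀ t, ψ t = φ (t + t ^ q) := fun t => rfl
      have hψ : ψ ≠ 0 := fun h => by
        obtain ⟨s, hs⟩ := H3.exists_trace_eq hF (a := (1 : F)) (one_pow q)
        have := DFunLike.congr_fun h s
        rw [hψa, hs] at this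
        exact hφ this
      have hcard := card_annih hF ψ hψ 1 (fun t => by rw [hψa, hψa, qq hF, one_mul, add_comm])
        (aS 3 D w)
      set C := annih hF ψ (aS 3 D w) with hC
      have hC0 : C ≠ ⊥ := fun h => by
        rw [h, AddSubgroup.card_bot, one_mul] at hcard
        refine hAt (AddSubgroup.eq_top_of_card_eq _ (hcard.trans ?_))
        simp [hF, ← pow_mul]
      have hkC : Nat.card (orbit (Cfsg.SU 3 F q) C) ≤ Nat.card (orbit (Cfsg.SU 3 F q) (aS 3 D w)) := by
        have : Finite (AddSubgroup (Fin 3 → F)) := Finite.of_injective _ SetLike.coe_injective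
        refine Nat.card_le_card_of_surjective
          (fun A => (⟨annih hF ψ A.1, ?_⟩ : orbit (Cfsg.SU 3 F q) C)) ?_
        · obtain ⟨g, hg⟩ := A.2
          exact ⟨g, by simp only [← hg, hC, annih_smul]⟩
        · rintro ⟨_, g, rfl⟩
          exact ⟨⟨g • aS 3 D w, mem_orbit _ _⟩, Subtype.ext (annih_smul hF ψ _ g)⟩
      refine (big_three hF hC0).trans ?_
      refine Nat.le_of_mul_le_mul_right ?_ (Nat.card_pos (α := aS 3 D w))
      rw [mul_assoc, hcard]
      exact (Nat.mul_le_mul_right _ hkC).trans hfb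
    have hpos : 0 < q ^ 7 := Nat.pow_pos (by omega)
    exact false_of_fix_count (D := D) (by omega) (fixT D 3 Ω) (fun w => mem_fixT) (by omega) hx (by omega)

end Cfsg.Agent.H2.MinU
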