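import Cfsg.Agent.H2.MinU.Step
import Mathlib.FieldTheory.ChevalleyWarning

/-!
Additive subgroups of small unitary spaces.
-/

set_option autoImplicit false

namespace Cfsg.Agent.H2.MinU

open Matrix MulAction
open scoped Pointwise

/-- Either the stabiliser of a vector stabilises the subgroup, or the orbit is covered twice. -/
theorem cover_cases {G : Type*} [Group G] {W : Type*} [AddCommGroup W] [Finite W] [DistribMulAction G W]
    (A : AddSubgroup W) {a : W} (ha : a ∈ A) :
    (∀ g : G, g • a = a → g • A = A) ∨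
      2 * (orbit G a).ncard ≤ Nat.card (orbit G A) * ((A : Set W) ∩ orbit G a).ncard := by
  classical
  by_cases h : ∀ g : G, g • a = a → g • A = A
  · exact Or.inl h
  push Not at h
  obtain ⟨g₀, hg₀, hne⟩ := h
  refine Or.inr ?_
  have : Finite (AddSubgroup W) := Finite.of_injective _ SetLike.coe_injective
  have := Fintype.ofFinite (orbit G A)
  have hrep : ∀ x : orbit G a, ∃ g : G, g • a = x.1 := fun x => x.2
  choose r hr using hrep
  let B : Bool → orbit G a → orbit G A := fun i x =>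
    ⟨(if i then r x * g₀ else r x) • A, mem_orbit _ _⟩
  have hB : ∀ i x, x.1 ∈ (B i x).1 ∧ x.1 ∈ orbit G a := by
    intro i x
    refine ⟨?_, x.2⟩
    cases i
    · show x.1 ∈ r x • A
      exact hr x ▸ AddSubgroup.smul_mem_pointwise_smul a _ A ha
    · show x.1 ∈ (r x * g₀) • A
      have : (r x * g₀) • a = x.1 := by rw [mul_smul, hg₀, hr]
      exact this ▸ AddSubgroup.smul_mem_pointwise_smul a _ A ha
  let f : Bool × orbit G a → Σ C : orbit G A, ↥((C.1 : Set W) ∩ orbit G a) := fun p =>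
    ⟨B p.1 p.2, ⟨p.2.1, hB p.1 p.2⟩⟩
  have hf : Function.Injective f := by
    rintro ⟨i, x⟩ ⟨i', x'⟩ e
    obtain rfl : x = x' :=
      Subtype.ext (congrArg (fun p : Σ C : orbit G A, ↥((C.1 : Set W) ∩ orbit G a) => (p.2 : W)) e)
    have e1 := congrArg (fun p : Σ C : orbit G A, ↥((C.1 : Set W) ∩ orbit G a) => (p.1 : AddSubgroup W)) e
    simp only [f, B] at e1
    have hx : ∀ u : AddSubgroup W, (r x * g₀) • A = r x • A → False := fun _ h =>
      hne (smul_left_cancel (r x) (by rwa [← mul_smul]))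
    cases i <;> cases i' <;> simp only [Bool.false_eq_true, if_false, if_true] at e1
    · rfl
    · exact (hx A e1.symm).elim
    · exact (hx A e1).elim
    · rfl
  have key := Nat.card_le_card_of_injective f hf
  rw [Nat.card_prod, Nat.card_sigma, Nat.card_coe_set_eq, Nat.card_eq_fintype_card (α := Bool),
    Fintype.card_bool] at key
  refine key.trans (le_of_eq ?_)
  rw [Nat.card_eq_fintype_card, ← Finset.card_univ, ← smul_eq_mul, ← Finset.sum_const]
  refine Finset.sum_congr rfl fun C _ => ?_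
  obtain ⟨g, hg⟩ := C.2
  simp only at hg
  rw [← hg, Nat.card_coe_set_eq,
    ← Set.ncard_image_of_injective ((A : Set W) ∩ orbit G a) (MulAction.injective g)]
  congr 1
  ext x
  constructor
  · rintro ⟨hx1, hx2⟩
    obtain ⟨y, hy, rfl⟩ := hx1
    refine ⟨y, ⟨hy, ?_⟩, rfl⟩
    obtain ⟨k, hk⟩ := hx2
    exact ⟨g⁻¹ * k, by simp only [mul_smul] at hk ⊢; rw [hk]; exact inv_smul_smul g y⟩
  · rintro ⟨y, ⟨hy, ⟨k, hk⟩⟩, rfl⟩
    exact ⟨AddSubgroup.smul_mem_pointwise_smul y g A hy, g * k, by
      simp only at hk ⊢; rw [mul_smul, hk]⟩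

variable {F : Type*} [Field F] [Fintype F] {q m : ℕ}

local notation "⟪" u ", " v "⟫" => Cfsg.hermForm _ F q u v

variable (hF : Fintype.card F = q ^ 2)
include hF

/-- An anisotropic additive group of vectors has at most `q ^ 2` elements. -/
theorem card_le_of_no_iso (A : AddSubgroup (Fin m → F))
    (hA : ∀ x ∈ A, ⟪x, x⟫ = 0 → x = 0) : Nat.card A ≤ q ^ 2 := by
  classical
  obtain ⟨p, f, hp, hc, -, hpq⟩ := H3.exists_q_eq_pow hF
  haveI := Fact.mk hp
  let _ : Algebra (ZMod p) F := ZMod.algebra F p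
  let R : Submodule (ZMod p) F := AddSubgroup.toZModSubmodule p
    { carrier := {a : F | a ^ q = a}
      zero_mem' := zero_pow (q_ne_zero hF)
      add_mem' := fun {a b} (ha : a ^ q = a) (hb : b ^ q = b) => by
        show (a + b) ^ q = a + b
        rw [qadd hF, ha, hb]
      neg_mem' := fun {a} (ha : a ^ q = a) => by
        show (-a) ^ q = -a
        rw [qneg hF, ha] }
  obtain ⟨r, hr⟩ : ∃ r, r = Module.finrank (ZMod p) R := ⟨_, rfl⟩
  have hR : p ^ r = q := by
    rw [hr, ← H3.card_fixed hF]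
    conv_rhs => rw [show Nat.card {x : F // x ^ q = x} = Nat.card R from rfl,
      Module.natCard_eq_pow_finrank (K := ZMod p), Nat.card_zmod]
  let V : Submodule (ZMod p) (Fin m → F) := AddSubgroup.toZModSubmodule p A
  let bV := Module.finBasis (ZMod p) V
  have hV : Nat.card A = p ^ Module.finrank (ZMod p) V := by
    rw [show Nat.card A = Nat.card V from rfl, Module.natCard_eq_pow_finrank (K := ZMod p),
      Nat.card_zmod]
  by_contra hgt
  push Not at hgt
  rw [hV, ← hR, ← pow_mul] at hgt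
  have hlt : r * 2 < Module.finrank (ZMod p) V := (Nat.pow_lt_pow_iff_right hp.one_lt).mp hgt
  obtain ⟨c₀, hc₀⟩ := H3.exists_trace_eq hF (a := (1 : F)) (one_pow q)
  let π : F → R := fun z => ⟨c₀ * z + (c₀ * z) ^ q, by
    show (c₀ * z + (c₀ * z) ^ q) ^ q = c₀ * z + (c₀ * z) ^ q
    rw [qadd hF, qq hF, add_comm]⟩
  have hπ : ∀ a b, π (a + b) = π a + π b := fun a b => Subtype.ext (by
    show c₀ * (a + b) + (c₀ * (a + b)) ^ q = c₀ * a + (c₀ * a) ^ q + (c₀ * b + (c₀ * b) ^ q)
    rw [mul_add, qadd hF]; ring)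
  let b0 : V →+ V →+ R :=
    AddMonoidHom.mk' (fun s => AddMonoidHom.mk' (fun t => π ⟪s.1, t.1⟫) fun u v => by
      rw [← hπ]; exact congrArg π (hadd_r hF _ _ _)) fun u v => AddMonoidHom.ext fun w => by
        show π ⟪u.1 + v.1, w.1⟫ = π ⟪u.1, w.1⟫ + π ⟪v.1, w.1⟫
        rw [← hπ, hadd_l hF]
  let b : LinearMap.BilinMap (ZMod p) V R :=
    (AddMonoidHom.mk' (fun s => (b0 s).toZModLinearMap p) fun u v => LinearMap.ext fun z => by
      show b0 (u + v) z = b0 u z + b0 v z
      rw [map_add]; rfl).toZModLinearMap p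
  let bR := Module.finBasisOfFinrankEq (ZMod p) R hr.symm
  let P : Fin r → MvPolynomial (Fin (Module.finrank (ZMod p) V)) (ZMod p) := fun k =>
    ∑ i, ∑ j, MvPolynomial.C (bR.repr (b (bV i) (bV j)) k) * (MvPolynomial.X i * MvPolynomial.X j)
  have hdeg : ∀ k, (P k).totalDegree ≤ 2 := fun k => by
    refine MvPolynomial.totalDegree_finsetSum_le fun i _ =>
      MvPolynomial.totalDegree_finsetSum_le fun j _ => ?_
    refine (MvPolynomial.totalDegree_mul _ _).trans ?_
    rw [MvPolynomial.totalDegree_C, zero_add]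
    refine (MvPolynomial.totalDegree_mul _ _).trans ?_
    rw [MvPolynomial.totalDegree_X, MvPolynomial.totalDegree_X]
  have hsum : (∑ k, (P k).totalDegree) < Fintype.card (Fin (Module.finrank (ZMod p) V)) := by
    rw [Fintype.card_fin]
    refine lt_of_le_of_lt (Finset.sum_le_sum fun k _ => hdeg k) ?_
    simpa using hlt
  have hdvd := char_dvd_card_solutions_of_fintype_sum_lt p hsum
  rw [Fintype.card_eq_nat_card] at hdvd
  have hone : 1 < Nat.card {x : Fin (Module.finrank (ZMod p) V) → ZMod p //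
      ∀ k, MvPolynomial.eval x (P k) = 0} := by
    refine lt_of_lt_of_le hp.one_lt (Nat.le_of_dvd ?_ hdvd)
    exact Nat.card_pos_iff.mpr ⟨⟨⟨0, fun k => by simp [P]⟩⟩, inferInstance⟩
  rw [Finite.one_lt_card_iff_nontrivial] at hone
  obtain ⟨⟨x, hx⟩, hx0⟩ := exists_ne (⟨0, fun k => by simp [P]⟩ :
    {x : Fin (Module.finrank (ZMod p) V) → ZMod p // ∀ k, MvPolynomial.eval x (P k) = 0})
  set v : V := ∑ i, x i • bV i with hv
  have hb : b v v = 0 := by
    refine bR.repr.injective (Finsupp.ext fun k => ?_)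
    rw [map_zero, Finsupp.zero_apply, ← hx k, hv]
    simp only [map_sum, map_smul, LinearMap.sum_apply, LinearMap.smul_apply, Finsupp.coe_finsetSum,
      Finset.sum_apply, Finsupp.coe_smul, Pi.smul_apply, smul_eq_mul, P, MvPolynomial.eval_C,
      map_mul, MvPolynomial.eval_X, Finset.mul_sum]
    rw [Finset.sum_comm]
    refine Finset.sum_congr rfl fun i _ => Finset.sum_congr rfl fun j _ => ?_
    ring
  have hv0 : v ≠ 0 := by
    intro h
    refine hx0 (Subtype.ext (funext fun i => ?_))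
    have e := congrArg (fun w => bV.repr w i) h
    simpa [hv, Finsupp.single_apply, Finset.sum_ite_eq'] using e
  refine hv0 (Subtype.ext (hA v.1 v.2 ?_))
  have h : π ⟪v.1, v.1⟫ = 0 := hb
  have h' : c₀ * ⟪v.1, v.1⟫ + (c₀ * ⟪v.1, v.1⟫) ^ q = 0 := congrArg (fun w : R => w.1) h
  rw [mul_pow, hswap hF v.1 v.1, ← add_mul, hc₀, one_mul] at h'
  exact h'

/-- In the plane three independent linear forms separate vectors. -/
theorem eq_zero_of_orth_three {v : Fin 3 → Fin 3 → F} (hli : LinearIndependent F v) {x : Fin 3 → F}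
    (h : ∀ i, ⟪x, v i⟫ = 0) : x = 0 := by
  by_contra hx
  obtain ⟨w, hw⟩ := H3.exists_hermForm_eq_one hF (q := q) hx
  have hsp : Submodule.span F (Set.range v) = ⊤ := hli.span_eq_top_of_card_eq_finrank' (by simp)
  obtain ⟨c, hc⟩ := (Submodule.mem_span_range_iff_exists_fun F).mp (hsp ▸ Submodule.mem_top (x := w))
  rw [← hc, Fin.sum_univ_three] at hw
  have h' : ∀ i, ⟪v i, x⟫ = 0 := fun i => hswap_zero hF (h i)
  simp [hadd_l hF, hsmul_l hF, h'] at hw

/-- A totally isotropic vector pair in three dimensions is dependent. -/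
theorem line_of_iso_three {v w : Fin 3 → F} (hv0 : v ≠ 0) (hv : ⟪v, v⟫ = 0) (hw : ⟪w, w⟫ = 0)
    (hvw : ⟪v, w⟫ = 0) : ∃ c : F, w = c • v := by
  by_contra hne
  push Not at hne
  have hli : LinearIndependent F ![v, w] := by
    rw [LinearIndependent.pair_iff]
    intro a b hab
    by_cases hb : b = 0
    · subst hb
      rw [zero_smul, add_zero, smul_eq_zero] at hab
      exact ⟨hab.resolve_right hv0, rfl⟩
    · exact absurd (show w = (-(b⁻¹ * a)) • v by
        rw [neg_smul, ← smul_smul, ← smul_neg, ← eq_neg_of_add_eq_zero_right hab, smul_smul,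
          inv_mul_cancel₀ hb, one_smul]) (hne _)
  obtain ⟨s, hs, hvs, hws⟩ := H3.exists_partner hF hli hv hvw 0
  obtain ⟨x, hx⟩ : ∃ x : Fin 3 → F, x ∉ Submodule.span F (Set.range ![v, w]) := by
    by_contra h
    push Not at h
    have e := finrank_span_eq_card hli
    rw [Submodule.eq_top_iff'.mpr h, finrank_top] at e
    simp at e
  have hs3 : LinearIndependent F ![v, w, s] := by
    rw [Fintype.linearIndependent_iff]
    intro g hg
    rw [Fin.sum_univ_three] at hg
    simp only [Matrix.cons_val_zero, Matrix.cons_val_one, Matrix.cons_val_two, Matrix.head_cons,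
      Matrix.tail_cons] at hg
    have e1 := congrArg (fun u => Cfsg.hermForm 3 F q u v) hg
    have hsv : ⟪s, v⟫ = 1 := by rw [← hswap hF v s, hvs, one_pow]
    simp only [hadd_l hF (n := 3), hsmul_l hF (n := 3), hzero_l hF (n := 3), hv, hswap_zero hF hvw, hsv,
      mul_zero, zero_add, mul_one] at e1
    rw [e1, zero_smul, add_zero] at hg
    obtain ⟨h0, h1⟩ := LinearIndependent.pair_iff.mp hli _ _ hg
    intro i
    fin_cases i <;> assumption
  have hx0 : w = 0 := eq_zero_of_orth_three hF hs3 (fun i => by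
    fin_cases i
    · exact hswap_zero hF hvw
    · exact hw
    · exact hws)
  exact hne 0 (by rw [hx0, zero_smul])

/-- An additive group of isotropic vectors in three dimensions has at most `q ^ 2` elements. -/
theorem card_le_of_all_iso (A : AddSubgroup (Fin 3 → F)) (hA : ∀ x ∈ A, ⟪x, x⟫ = 0) :
    Nat.card A ≤ q ^ 2 := by
  classical
  have htr : ∀ x ∈ A, ∀ y ∈ A, ⟪x, y⟫ + ⟪y, x⟫ = 0 := by
    intro x hx y hy
    have e := hA _ (A.add_mem hx hy)
    rw [hadd_l hF, hadd_r hF, hadd_r hF, hA x hx, hA y hy] at e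
    linear_combination e
  by_cases hall : ∀ x ∈ A, ∀ y ∈ A, ⟪x, y⟫ = 0
  · by_cases h0 : A = ⊥
    · rw [h0, AddSubgroup.card_bot]
      exact Nat.one_le_pow _ _ (by have := H3.two_le_q hF; omega)
    obtain ⟨v, hv, hv0⟩ : ∃ v ∈ A, v ≠ 0 := by
      by_contra h; push Not at h; exact h0 (eq_bot_iff.mpr fun v hv => by simp [h v hv])
    choose f hf using fun x : A => line_of_iso_three hF hv0 (hA v hv) (hA x.1 x.2) (hall v hv x.1 x.2)
    rw [← hF, ← Nat.card_eq_fintype_card]
    exact Nat.card_le_card_of_injective f fun x y h => Subtype.ext (by rw [hf x, hf y, h])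
  push Not at hall
  obtain ⟨a, ha, b, hb, hab⟩ := hall
  let f : A →+ skew hF × skew hF := AddMonoidHom.mk'
    (fun x => (⟨⟪x.1, a⟫, mem_skew.mpr (by rw [hswap hF]; exact htr x.1 x.2 a ha)⟩,
      ⟨⟪x.1, b⟫, mem_skew.mpr (by rw [hswap hF]; exact htr x.1 x.2 b hb)⟩))
    fun x y => Prod.ext (Subtype.ext (hadd_l hF _ _ _)) (Subtype.ext (hadd_l hF _ _ _))
  refine le_trans (Nat.card_le_card_of_injective f ?_) (by rw [Nat.card_prod, card_skew, sq])
  rw [injective_iff_map_eq_zero]
  intro x hx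
  have e1 : ⟪x.1, a⟫ = 0 := congrArg (fun p : skew hF × skew hF => (p.1 : F)) hx
  have e2 : ⟪x.1, b⟫ = 0 := congrArg (fun p : skew hF × skew hF => (p.2 : F)) hx
  by_contra hx0
  have hx0' : x.1 ≠ 0 := fun e => hx0 (Subtype.ext e)
  have hli : LinearIndependent F ![a, b, x.1] := by
    rw [Fintype.linearIndependent_iff]
    intro g hg
    rw [Fin.sum_univ_three] at hg
    simp only [Matrix.cons_val_zero, Matrix.cons_val_one, Matrix.cons_val_two, Matrix.head_cons,
      Matrix.tail_cons] at hg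
    have ea := congrArg (fun u => Cfsg.hermForm 3 F q u a) hg
    have eb := congrArg (fun u => Cfsg.hermForm 3 F q u b) hg
    have hba : ⟪b, a⟫ ≠ 0 := fun h => hab (hswap_zero hF h)
    simp only [hadd_l hF (n := 3), hsmul_l hF (n := 3), hzero_l hF (n := 3), hA a ha, hA b hb, e1, e2,
      mul_zero, add_zero, zero_add] at ea eb
    have g1 : g 1 = 0 := (mul_eq_zero.mp ea).resolve_right hba
    have g0 : g 0 = 0 := (mul_eq_zero.mp eb).resolve_right hab
    rw [g0, g1, zero_smul, zero_smul, zero_add, zero_add, smul_eq_zero] at hg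
    intro i
    fin_cases i
    · exact g0
    · exact g1
    · exact hg.resolve_right hx0'
  exact hx0' (eq_zero_of_orth_three hF hli (fun i => by
    fin_cases i
    · exact e1
    · exact e2
    · exact hA x.1 x.2))

end Cfsg.Agent.H2.MinU
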