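import Cfsg.Agent.H2.MinU.Odd.Space

/-!
Translates of additive subgroups in three dimensions.
-/

set_option autoImplicit false

namespace Cfsg.Agent.H2.MinU

open Matrix MulAction
open scoped Pointwise

variable {F : Type*} [Field F] [Fintype F] {q : ℕ}

local notation "⟪" u ", " v "⟫" => Cfsg.hermForm _ F q u v

/-- A non-trivial radical element in the stabiliser puts multiples of the centre in the group. -/
theorem root_of_fix {D : Dat F q} {B : AddSubgroup (Fin (2 + 1) → F)} {u : Cfsg.SU (2 + 1) F q}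
    (hu : u ∈ Qg D 1) (hu1 : u ≠ 1) (hfix : u • B = B) :
    ∃ c : F, c ≠ 0 ∧ ∀ b ∈ B, (c * ⟪b, D.p 1⟫) • D.p 1 ∈ B := by
  obtain ⟨w, a, hok, rfl⟩ := hu
  have hd : ∀ b ∈ B, act (El D w a) b - b ∈ B := fun b hb =>
    B.sub_mem (hfix ▸ AddSubgroup.smul_mem_pointwise_smul b (El D w a) B hb : El D w a • b ∈ B) hb
  have hval : ∀ b, act (El D w a) b - b =
      ⟪b, D.p 1⟫ • up w - ⟪b, up w⟫ • D.p 1 + (a * ⟪b, D.p 1⟫) • D.p 1 := fun b => by
    rw [El, act_E D.hF (ok_of hok D)]; abel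
  by_cases hw : w = 0
  · subst hw
    refine ⟨a, fun ha => hu1 (by rw [ha, El_zero]), fun b hb => ?_⟩
    have := hd b hb
    rw [hval, map_zero, hzero_r D.hF, smul_zero, zero_smul, sub_zero, zero_add] at this
    exact this
  · have hne : ⟪w, w⟫ ≠ 0 := by
      intro h
      refine hw (funext fun i => ?_)
      obtain rfl : i = 0 := Subsingleton.elim _ _
      simp only [Cfsg.hermForm, Fin.sum_univ_one, ← pow_succ'] at h
      exact eq_zero_of_pow_eq_zero h
    refine ⟨-⟪w, w⟫, neg_ne_zero.mpr hne, fun b hb => ?_⟩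
    have := hd _ (hd b hb)
    rw [hval (act (El D w a) b - b), hval b] at this
    simp only [hadd_l D.hF, hsub_l D.hF, hsmul_l D.hF, D.up_p, D.p_up, D.p_iso, D.form_up, mul_zero,
      sub_zero, add_zero, zero_smul, zero_sub, mul_comm (⟪b, D.p 1⟫) ⟪w, w⟫] at this
    rw [← neg_smul, ← neg_mul] at this
    exact this

/-- The vectors orthogonal to a given one. -/
theorem card_orth (hF : Fintype.card F = q ^ 2) {a : Fin 3 → F} (ha : a ≠ 0) :
    {v : Fin 3 → F | ⟪v, a⟫ = 0}.ncard = q ^ 4 := by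
  let f : (Fin 3 → F) →ₗ[F] F :=
    { toFun := fun v => ⟪v, a⟫
      map_add' := fun u v => hadd_l hF u v a
      map_smul' := fun c v => hsmul_l hF c v a }
  have hrange : LinearMap.range f = ⊤ := by
    obtain ⟨w, hw⟩ := H3.exists_hermForm_eq_one hF (q := q) ha
    refine LinearMap.range_eq_top.mpr fun c => ⟨c • w, ?_⟩
    show Cfsg.hermForm 3 F q (c • w) a = c
    rw [hsmul_l hF, hw, mul_one]
  have h := LinearMap.finrank_range_add_finrank_ker f
  rw [hrange, finrank_top, Module.finrank_self, Module.finrank_fin_fun] at h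
  rw [← Nat.card_coe_set_eq, show Nat.card {v : Fin 3 → F | ⟪v, a⟫ = 0} = Nat.card (LinearMap.ker f) from rfl,
    Module.natCard_eq_pow_finrank (K := F), Nat.card_eq_fintype_card, hF,
    show Module.finrank F (LinearMap.ker f) = 2 by omega, ← pow_mul]

set_option maxHeartbeats 600000 in
/-- The translates of a small additive subgroup of the three-dimensional space. -/
theorem cube_le_orbit (hF : Fintype.card F = q ^ 2) (hq : 3 ≤ q) {A : AddSubgroup (Fin (2 + 1) → F)}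
    (h0 : A ≠ ⊥) (hA : Nat.card A ≤ q ^ 3) :
    q ^ 3 ≤ Nat.card (orbit (Cfsg.SU (2 + 1) F q) A) := by
  classical
  by_contra hlt
  push Not at hlt
  obtain ⟨D⟩ := exists_dat hF
  have : Finite (AddSubgroup (Fin (2 + 1) → F)) := Finite.of_injective _ SetLike.coe_injective
  -- every isotropic vector gives multiples of itself in the subgroup
  have hroot : ∀ v : Fin (2 + 1) → F, v ≠ 0 → ⟪v, v⟫ = 0 →
      ∃ c : F, c ≠ 0 ∧ ∀ b ∈ A, (c * ⟪b, v⟫) • v ∈ A := by
    intro v hv0 hv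
    obtain ⟨g, hg⟩ : v ∈ orbit (Cfsg.SU (2 + 1) F q) (D.p 1) := by
      rw [orbit_eq_class hF (by norm_num) D.p_ne (Or.inr (by norm_num))]
      exact ⟨hv0, hv.trans D.p_iso.symm⟩
    simp only at hg
    set B := g⁻¹ • A with hB
    have hsub : orbit (Qg D 1) B ⊆ orbit (Cfsg.SU (2 + 1) F q) A := by
      rintro _ ⟨u, rfl⟩
      exact ⟨u.1 * g⁻¹, mul_smul _ _ _⟩
    have h1 := card_orbit_mul_stab (Qg D 1) B
    obtain ⟨u, hu, hu1⟩ : ∃ u ∈ stabilizer (Qg D 1) B, u ≠ 1 := by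
      by_contra h
      push Not at h
      have hbot : stabilizer (Qg D 1) B = ⊥ := eq_bot_iff.mpr fun u hu => Subgroup.mem_bot.mpr (h u hu)
      rw [card_Qg] at h1
      have h2 : Nat.card (orbit (Qg D 1) B) = q ^ (2 * 1 + 1) := by
        rw [← h1, hbot, Subgroup.card_bot, mul_one]
      rw [Nat.card_coe_set_eq] at h2 hlt
      have h3' : q ^ (2 * 1 + 1) = q ^ 3 := rfl
      have := Set.ncard_le_ncard hsub (Set.toFinite _)
      omega
    obtain ⟨c, hc, hcB⟩ := root_of_fix (D := D) (B := B) u.2 (fun e => hu1 (Subtype.ext e)) hu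
    refine ⟨c, hc, fun b hb => ?_⟩
    have hb' : g⁻¹ • b ∈ B := AddSubgroup.smul_mem_pointwise_smul _ _ _ hb
    have h3 := AddSubgroup.smul_mem_pointwise_smul _ g _ (hcB _ hb')
    replace h3 : g • ((c * ⟪g⁻¹ • b, D.p 1⟫) • D.p 1) ∈ A :=
      (smul_inv_smul g A : g • B = A) ▸ h3
    rw [smul_eq_act, act_smul, ← smul_eq_act, hg] at h3
    have e : ⟪g⁻¹ • b, D.p 1⟫ = ⟪b, v⟫ := by
      rw [← hg, smul_eq_act, smul_eq_act, ← form_act g (act g⁻¹ b), act_act_inv]
    rwa [e] at h3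
  let T : Finset (Fin (2 + 1) → F) := Finset.univ.filter fun s => s ∈ A ∧ s ≠ 0
  let n : (Fin (2 + 1) → F) → ℕ := fun v => (T.filter fun s => ∃ t : F, s = t • v).card
  let I : Finset (Fin (2 + 1) → F) := Finset.univ.filter fun v => v ≠ 0 ∧ ⟪v, v⟫ = 0
  let G : Finset (Fin (2 + 1) → F) := I.filter fun v => ∃ b ∈ A, ⟪b, v⟫ ≠ 0
  obtain ⟨a₀, ha₀, ha₀0⟩ : ∃ a ∈ A, a ≠ 0 := by
    by_contra h; push Not at h; exact h0 (eq_bot_iff.mpr fun a ha => by simp [h a ha])
  have hI : I.card = (q ^ 2 - 1) * (q ^ 3 + 1) := by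
    have h := card_iso hF (F := F) (2 + 1)
    rw [show pts q (2 + 1) = q ^ 3 + 1 from pts_three q] at h
    rw [← Set.ncard_coe_finset,
      show (I : Set (Fin (2 + 1) → F)) = {w | w ≠ 0 ∧ ⟪w, w⟫ = 0} by ext w; simp [I]]
    have : 1 ≤ q ^ 2 := Nat.one_le_pow _ _ (by omega)
    zify [this]
    exact_mod_cast h
  have hG : I.card ≤ G.card + q ^ 4 := by
    have h1 := Finset.card_filter_add_card_filter_not (s := I) fun v => ∃ b ∈ A, ⟪b, v⟫ ≠ 0
    have h2 : (I.filter fun v => ¬ ∃ b ∈ A, ⟪b, v⟫ ≠ 0).card ≤ q ^ 4 := by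
      rw [← card_orth hF (a := a₀) ha₀0, ← Set.ncard_coe_finset]
      refine Set.ncard_le_ncard ?_ (Set.toFinite _)
      intro v hv
      simp only [Finset.coe_filter, Set.mem_setOf_eq, not_exists, not_and, not_not] at hv
      exact hswap_zero hF (hv.2 a₀ ha₀)
    simp only [G]
    omega
  have hT : T.card = Nat.card A - 1 := by
    rw [← card_add_one A, Nat.add_sub_cancel, ← Set.ncard_coe_finset]
    congr 1; ext x; simp [T]
  have hF0 : (Finset.univ.filter fun t : F => t ≠ 0).card = q ^ 2 - 1 := by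
    rw [Finset.filter_ne' Finset.univ 0, Finset.card_erase_of_mem (Finset.mem_univ _), Finset.card_univ, hF]
  have hsum : ∑ v ∈ G, n v ≤ (q ^ 2 - 1) * (Nat.card A - 1) := by
    rw [← hF0, ← hT, ← Finset.card_product, ← Finset.card_sigma G fun v => T.filter fun s => ∃ t : F, s = t • v]
    refine Finset.card_le_card_of_surjOn (fun p => ⟨p.1⁻¹ • p.2, p.2⟩) ?_
    rintro ⟨v, s⟩ hp
    simp only [Finset.coe_sigma, Set.mem_sigma_iff, Finset.coe_filter, Set.mem_setOf_eq] at hp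
    obtain ⟨-, hsT, t, ht⟩ := hp
    have ht0 : t ≠ 0 := fun e => (Finset.mem_filter.mp hsT).2.2 (by rw [ht, e, zero_smul])
    refine ⟨(t, s), by simp [ht0, hsT], ?_⟩
    simp only
    rw [show t⁻¹ • s = v by rw [ht, smul_smul, inv_mul_cancel₀ ht0, one_smul]]
  -- a good vector has a multiple in the subgroup, and a single one only when few forms occur
  have hgood : ∀ v ∈ G, 1 ≤ n v ∧ (n v ≤ 1 → (2 : F) = 0 ∧
      ∃ s : Fin (2 + 1) → F, ∃ c : F, c ≠ 0 ∧ ∀ b ∈ A, (c * ⟪b, v⟫) • v = 0 ∨ (c * ⟪b, v⟫) • v = s) := by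
    intro v hv
    simp only [G, I, Finset.mem_filter, Finset.mem_univ, true_and] at hv
    obtain ⟨⟨hv0, hviso⟩, b, hb, hbv⟩ := hv
    obtain ⟨c, hc, hcA⟩ := hroot v hv0 hviso
    set s := (c * ⟪b, v⟫) • v with hs
    have hsmem : s ∈ T.filter fun s => ∃ t : F, s = t • v := by
      simp only [T, Finset.mem_filter, Finset.mem_univ, true_and]
      exact ⟨⟨hcA b hb, smul_ne_zero (mul_ne_zero hc hbv) hv0⟩, _, rfl⟩
    refine ⟨Finset.card_pos.mpr ⟨s, hsmem⟩, fun h1 => ?_⟩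
    have huniq := Finset.card_le_one.mp h1
    refine ⟨?_, s, c, hc, fun b' hb' => ?_⟩
    · have hns : -s ∈ T.filter fun s => ∃ t : F, s = t • v := by
        simp only [T, Finset.mem_filter, Finset.mem_univ, true_and]
        exact ⟨⟨A.neg_mem (hcA b hb), neg_ne_zero.mpr (smul_ne_zero (mul_ne_zero hc hbv) hv0)⟩,
          -(c * ⟪b, v⟫), by rw [neg_smul]⟩
      have e := huniq _ hns _ hsmem
      have e2 : ((2 : F) * (c * ⟪b, v⟫)) • v = 0 := by
        rw [two_mul, add_smul]; nth_rw 1 [← hs]; rw [← hs]; nth_rw 1 [← e]; exact neg_add_cancel s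
      exact (mul_eq_zero.mp ((smul_eq_zero.mp e2).resolve_right hv0)).resolve_right (mul_ne_zero hc hbv)
    · by_cases hz : (c * ⟪b', v⟫) • v = 0
      · exact Or.inl hz
      · refine Or.inr (huniq _ ?_ _ hsmem)
        simp only [T, Finset.mem_filter, Finset.mem_univ, true_and]
        exact ⟨⟨hcA b' hb', hz⟩, _, rfl⟩
  set G1 := G.filter fun v => n v ≤ 1 with hG1
  have hlow : 2 * G.card ≤ (∑ v ∈ G, n v) + G1.card := by
    have hc1 : G1.card = ∑ v ∈ G, if n v ≤ 1 then 1 else 0 := Finset.card_filter _ _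
    rw [hc1, ← Finset.sum_add_distrib, mul_comm, ← smul_eq_mul, ← Finset.sum_const]
    refine Finset.sum_le_sum fun v hv => ?_
    have := (hgood v hv).1
    split_ifs <;> omega
  have hA1 : (q ^ 2 - 1) * (Nat.card A - 1) ≤ (q ^ 2 - 1) * (q ^ 3 - 1) :=
    Nat.mul_le_mul_left _ (Nat.sub_le_sub_right hA 1)
  have hq4 : 9 ≤ q ^ 2 := Nat.pow_le_pow_left hq 2
  have hq3 : 1 ≤ q ^ 3 := Nat.one_le_pow _ _ (by omega)
  have e1 : (q ^ 2 - 1) * (q ^ 3 + 1) + q ^ 3 + 1 = q ^ 5 + q ^ 2 := by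
    zify [show 1 ≤ q ^ 2 by omega]; ring
  have e2 : (q ^ 2 - 1) * (q ^ 3 - 1) + q ^ 3 + q ^ 2 = q ^ 5 + 1 := by
    zify [show 1 ≤ q ^ 2 by omega, hq3]; ring
  have e3 : 3 * q ^ 4 ≤ q ^ 5 := by rw [pow_succ' q 4]; exact Nat.mul_le_mul_right _ hq
  have e4 : 3 * q ^ 3 ≤ q ^ 4 := by rw [pow_succ' q 3]; exact Nat.mul_le_mul_right _ hq
  rcases Nat.lt_or_ge q 4 with hq' | hq'
  · obtain rfl : q = 3 := by omega
    have hG10 : G1.card = 0 := by
      rw [Finset.card_eq_zero, Finset.eq_empty_iff_forall_notMem]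
      intro v hv
      rw [hG1, Finset.mem_filter] at hv
      have h2 := ((hgood v hv.1).2 hv.2).1
      haveI : CharP F 3 := by
        obtain ⟨p, f, hp, hc, -, hpq⟩ := H3.exists_q_eq_pow hF
        have : p = 3 := by
          rcases f with _ | f
          · simp at hpq
          · exact ((Nat.prime_dvd_prime_iff_eq hp Nat.prime_three).mp ⟨p ^ f, by rw [hpq, pow_succ']⟩)
        exact this ▸ hc
      have h3 : (3 : F) = 0 := CharP.ofNat_eq_zero' F 3 3 dvd_rfl
      exact one_ne_zero (α := F) (by linear_combination h3 - h2)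
    norm_num at hI hA1 hG e1 e2
    omega
  have e3' : 4 * q ^ 4 ≤ q ^ 5 := by rw [pow_succ' q 4]; exact Nat.mul_le_mul_right _ hq'
  have e4' : 4 * q ^ 3 ≤ q ^ 4 := by rw [pow_succ' q 3]; exact Nat.mul_le_mul_right _ hq'
  have hbig : q ^ 4 < G1.card := by omega
  have hbig2 : q ^ 2 < G1.card := lt_of_le_of_lt (Nat.pow_le_pow_right (by omega) (by norm_num)) hbig
  obtain ⟨v₁, hv₁⟩ : G1.Nonempty := Finset.card_pos.mp (by omega)
  have hmem : ∀ v ∈ G1, v ∈ G ∧ n v ≤ 1 := fun v hv => Finset.mem_filter.mp hv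
  obtain ⟨⟨hv₁0, hv₁i⟩, -⟩ : (v₁ ≠ 0 ∧ ⟪v₁, v₁⟫ = 0) ∧ True := by
    have := (hmem v₁ hv₁).1
    simp only [G, I, Finset.mem_filter, Finset.mem_univ, true_and] at this
    exact ⟨this.1, trivial⟩
  have hline : ∀ (W : Submodule F (Fin (2 + 1) → F)) (d : ℕ), Module.finrank F W = d →
      q ^ (2 * d) < G1.card → ∃ v ∈ G1, v ∉ W := by
    intro W d hd hc
    by_contra h
    push Not at h
    have h1 := Set.ncard_le_ncard (fun v hv => h v (Finset.mem_coe.mp hv) :
      (G1 : Set (Fin (2 + 1) → F)) ⊆ W) (Set.toFinite _)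
    rw [Set.ncard_coe_finset, ← Nat.card_coe_set_eq,
      show Nat.card (W : Set (Fin (2 + 1) → F)) = Nat.card W from rfl,
      Module.natCard_eq_pow_finrank (K := F), Nat.card_eq_fintype_card, hF, hd, ← pow_mul] at h1
    omega
  obtain ⟨v₂, hv₂, hv₂n⟩ := hline (Submodule.span F {v₁}) 1 (finrank_span_singleton hv₁0) hbig2
  have hli2 : LinearIndependent F ![v₁, v₂] := by
    rw [LinearIndependent.pair_iff' hv₁0]
    exact fun a ha => hv₂n (Submodule.mem_span_singleton.mpr ⟨a, ha⟩)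
  obtain ⟨v₃, hv₃, hv₃n⟩ := hline (Submodule.span F (Set.range ![v₁, v₂])) 2
    (by rw [finrank_span_eq_card hli2, Fintype.card_fin]) hbig
  have hli3 : LinearIndependent F ![v₁, v₂, v₃] := by
    rw [Fintype.linearIndependent_iff]
    intro g hg
    rw [Fin.sum_univ_three] at hg
    simp only [Matrix.cons_val_zero, Matrix.cons_val_one, Matrix.cons_val_two, Matrix.head_cons,
      Matrix.tail_cons] at hg
    have g2 : g 2 = 0 := by
      by_contra hne
      refine hv₃n ?_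
      rw [show v₃ = (g 2)⁻¹ • (-(g 0 • v₁ + g 1 • v₂)) by
        rw [← eq_neg_of_add_eq_zero_right hg, smul_smul, inv_mul_cancel₀ hne, one_smul]]
      refine Submodule.smul_mem _ _ (Submodule.neg_mem _ (Submodule.add_mem _ ?_ ?_)) <;>
        refine Submodule.smul_mem _ _ (Submodule.subset_span ?_)
      · exact ⟨0, rfl⟩
      · exact ⟨1, rfl⟩
    rw [g2, zero_smul, add_zero] at hg
    obtain ⟨g0, g1⟩ := LinearIndependent.pair_iff.mp hli2 _ _ hg
    intro i
    fin_cases i <;> assumption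
  choose hv0 s c hc hval using fun i : Fin 3 =>
    (hgood (![v₁, v₂, v₃] i) (by fin_cases i <;> [exact (hmem _ hv₁).1; exact (hmem _ hv₂).1; exact (hmem _ hv₃).1])).2
      (by fin_cases i <;> [exact (hmem _ hv₁).2; exact (hmem _ hv₂).2; exact (hmem _ hv₃).2])
  let φ : A → (Fin 3 → Bool) := fun b i => decide ((c i * ⟪b.1, ![v₁, v₂, v₃] i⟫) • ![v₁, v₂, v₃] i = 0)
  have hφ : Function.Injective φ := by
    intro b b' h
    refine Subtype.ext (sub_eq_zero.mp (eq_zero_of_orth_three hF hli3 fun i => ?_))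
    have e := congrFun h i
    simp only [φ, decide_eq_decide] at e
    have hvi : (![v₁, v₂, v₃] i : Fin 3 → F) ≠ 0 := hli3.ne_zero i
    have key : (c i * ⟪b.1, ![v₁, v₂, v₃] i⟫) • ![v₁, v₂, v₃] i =
        (c i * ⟪b'.1, ![v₁, v₂, v₃] i⟫) • ![v₁, v₂, v₃] i := by
      by_cases hb : (c i * ⟪b.1, ![v₁, v₂, v₃] i⟫) • ![v₁, v₂, v₃] i = 0
      · rw [hb, e.mp hb]
      · rw [(hval i b.1 b.2).resolve_left hb, (hval i b'.1 b'.2).resolve_left fun h => hb (e.mpr h)]
    have := mul_left_cancel₀ (hc i) (smul_left_injective F hvi key)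
    rw [hsub_l hF, sub_eq_zero]
    exact this
  have h8 := Nat.card_le_card_of_injective φ hφ
  rw [Nat.card_fun, Nat.card_eq_fintype_card (α := Bool), Fintype.card_bool, Nat.card_fin] at h8
  have h9 : (q ^ 2 - 1) * (Nat.card A - 1) ≤ (q ^ 2 - 1) * 7 := Nat.mul_le_mul_left _ (by omega)
  have h10 : G.card ≤ ∑ v ∈ G, n v := by
    rw [Finset.card_eq_sum_ones]
    exact Finset.sum_le_sum fun v hv => (hgood v hv).1
  have h11 : 4 * q ^ 2 ≤ q ^ 3 := by rw [pow_succ' q 2]; exact Nat.mul_le_mul_right _ hq'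
  omega

set_option maxHeartbeats 600000 in
/-- The translates under the Levi subgroup outnumber the group by enough. -/
theorem lev_bound_three (D : Dat F q) (A : AddSubgroup (Fin 3 → F)) (h0 : A ≠ ⊥)
    (hA : Nat.card A ≤ q ^ 3) :
    Nat.card A * (q ^ 2 + 2) ≤ Nat.card (orbit (Lev D 3) A) * q ^ 2 := by
  classical
  have hF := D.hF
  have hq := H3.two_le_q hF
  have : Finite (AddSubgroup (Fin 3 → F)) := Finite.of_injective _ SetLike.coe_injective
  have hmono : Nat.card (orbit (Cfsg.SU 3 F q) A) ≤ Nat.card (orbit (Lev D 3) A) := by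
    rw [Nat.card_coe_set_eq, Nat.card_coe_set_eq]
    refine Set.ncard_le_ncard ?_ (Set.toFinite _)
    rintro _ ⟨g, rfl⟩
    refine ⟨inclL D g, ?_⟩
    ext w
    refine (AddSubgroup.mem_pointwise_smul_iff_inv_smul_mem).trans ?_
    refine Iff.trans ?_ (AddSubgroup.mem_pointwise_smul_iff_inv_smul_mem (a := g)).symm
    rw [← map_inv, inclL_smul]
  set k := Nat.card (orbit (Lev D 3) A) with hk
  set a := Nat.card A with ha
  obtain ⟨p, f, hp, hch, -, hpq⟩ := H3.exists_q_eq_pow hF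
  rcases hA.lt_or_eq with hlt | heq
  · have h2 : 2 * a ≤ q ^ 3 := by
      have hd : a ∣ Nat.card (Fin 3 → F) := AddSubgroup.card_addSubgroup_dvd_card A
      rw [show Nat.card (Fin 3 → F) = p ^ (f * 2 * 3) by simp [hF, hpq, ← pow_mul]] at hd
      obtain ⟨j, -, hj⟩ := (Nat.dvd_prime_pow hp).mp hd
      rw [hj, hpq, ← pow_mul] at hlt ⊢
      have := (Nat.pow_lt_pow_iff_right hp.one_lt).mp hlt
      calc 2 * p ^ j ≤ p * p ^ j := Nat.mul_le_mul_right _ hp.two_le
        _ = p ^ (j + 1) := (pow_succ' _ _).symm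
        _ ≤ _ := Nat.pow_le_pow_right hp.pos this
    rcases Nat.lt_or_ge q 3 with hq2 | hq3
    · obtain rfl : q = 2 := by omega
      norm_num at h2 ⊢
      obtain ⟨b, hb, hb0⟩ : ∃ b ∈ A, b ≠ 0 := by
        by_contra h; push Not at h; exact h0 (eq_bot_iff.mpr fun b hb => by simp [h b hb])
      have hcov := orbit_le_cover (G := Cfsg.SU 3 F 2) A hb hb0
      have hlow := orbit_lower hF (k := 2) le_rfl hb0
      have h3 : Nat.card (orbit (Cfsg.SU 3 F 2) A) * (a - 1) ≤ k * 3 :=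
        Nat.mul_le_mul hmono (by omega)
      norm_num at hlow
      have h4 : 24 ≤ k * 3 := le_trans ((show 24 ≤ (orbit (Cfsg.SU 3 F 2) b).ncard by
        change 32 ≤ (orbit (Cfsg.SU 3 F 2) b).ncard + 8 at hlow
        omega).trans hcov) h3
      omega
    · have hk3 : q ^ 3 ≤ k := (cube_le_orbit hF hq3 h0 hA).trans hmono
      have h4 := Nat.mul_le_mul h2 (show q ^ 2 + 2 ≤ 2 * q ^ 2 by
        have := Nat.pow_le_pow_left hq3 2; omega)
      have h5 : q ^ 3 * q ^ 2 ≤ k * q ^ 2 := Nat.mul_le_mul_right _ hk3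
      refine Nat.le_of_mul_le_mul_left (a := a * (q ^ 2 + 2)) (c := 2) ?_ (by norm_num)
      calc 2 * (a * (q ^ 2 + 2)) = 2 * a * (q ^ 2 + 2) := by ring
        _ ≤ q ^ 3 * (2 * q ^ 2) := h4
        _ = 2 * (q ^ 3 * q ^ 2) := by ring
        _ ≤ _ := Nat.mul_le_mul_left _ h5
  -- the largest subgroups
  obtain ⟨v, hvA, hv0, hv⟩ : ∃ v ∈ A, v ≠ 0 ∧ ⟪v, v⟫ = 0 := by
    by_contra h
    push Not at h
    have := card_le_of_no_iso hF A fun x hx hxx => by_contra fun hx0 => h x hx hx0 hxx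
    have : q ^ 2 < q ^ 3 := Nat.pow_lt_pow_right (by omega) (by norm_num)
    omega
  obtain ⟨b, hbA, hb⟩ : ∃ b ∈ A, ⟪b, b⟫ ≠ 0 := by
    by_contra h
    push Not at h
    have := card_le_of_all_iso hF A h
    have : q ^ 2 < q ^ 3 := Nat.pow_lt_pow_right (by omega) (by norm_num)
    omega
  have hOv : orbit (Lev D 3) v = {w | w ≠ 0 ∧ ⟪w, w⟫ = 0} := by
    ext w
    constructor
    · rintro ⟨g, rfl⟩
      exact ⟨fun e => hv0 ((smul_eq_zero_iff_eq g).mp e), by
        show ⟪g • v, g • v⟫ = 0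
        rw [form_lev' g v v, hv, mul_zero]⟩
    · intro hw
      obtain ⟨g, hg⟩ : w ∈ orbit (Cfsg.SU 3 F q) v := by
        rw [orbit_eq_class hF (by norm_num) hv0 (Or.inr le_rfl), hv]; exact hw
      exact ⟨inclL D g, by simp only; rw [inclL_smul]; exact hg⟩
  have hOb : orbit (Lev D 3) b = {w | ⟪w, w⟫ ≠ 0} := by
    ext w
    constructor
    · rintro ⟨g, rfl⟩
      show ⟪g • b, g • b⟫ ≠ 0
      rw [form_lev' g b b]
      exact mul_ne_zero (pow_ne_zero _ (cc_ne g)) hb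
    · intro (hw : ⟪w, w⟫ ≠ 0)
      obtain ⟨c, hc⟩ := H3.exists_norm_eq hF (μ := ⟪w, w⟫ / ⟪b, b⟫)
        (by rw [div_pow, hswap hF, hswap hF])
      have hc0 : c ≠ 0 := fun e => by
        rw [e, zero_pow (Nat.succ_ne_zero q), eq_comm, div_eq_zero_iff] at hc
        exact hc.elim hw hb
      obtain ⟨g, hg⟩ := exists_levL_scalar D (m := 3) (by norm_num) hc0
      have hgb : ⟪g • b, g • b⟫ = ⟪w, w⟫ := by rw [form_lev' g b b, hg, hc, div_mul_cancel₀ _ hb]
      obtain ⟨l, hl⟩ : w ∈ orbit (Cfsg.SU 3 F q) (g • b) := by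
        rw [orbit_eq_class hF (by norm_num) (v := g • b) (fun e => hw (by rw [← hgb, e, hzero_l hF]))
          (Or.inr le_rfl)]
        exact ⟨fun e => hw (by rw [e, hzero_l hF]), hgb.symm⟩
      exact ⟨inclL D l * g, by simp only; rw [mul_smul, inclL_smul]; exact hl⟩
  have hnot : ¬ ((∀ g : Lev D 3, g • v = v → g • A = A) ∧ ∀ g : Lev D 3, g • b = b → g • A = A) := by
    rintro ⟨hsv, hsb⟩
    have hsu : ∀ (g : Cfsg.SU 3 F q) (x : Fin 3 → F), act g x = x →
        (∀ g : Lev D 3, g • x = x → g • A = A) → ∀ y ∈ A, act g y ∈ A := by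
      intro g x hx hst y hy
      have h1 := hst (inclL D g) (by rw [inclL_smul]; exact hx)
      have h2 : inclL D g • y ∈ inclL D g • A := AddSubgroup.smul_mem_pointwise_smul y _ A hy
      rw [h1, inclL_smul] at h2
      exact h2
    have hperp : ∀ y ∈ A, ⟪y, v⟫ = 0 := by
      intro y hy
      by_contra hne
      have hroot : ∀ x s, Ok q v x s → ∀ z ∈ A,
          ⟪z, v⟫ • x - ⟪z, x⟫ • v + (s * ⟪z, v⟫) • v ∈ A := by
        intro x s hok z hz
        have hfixv : act (E hF v x s) v = v := by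
          rw [act_E hF hok]; simp [hok.1, hok.2.1]
        have h := A.sub_mem (hsu _ v hfixv hsv z hz) hz
        rw [act_E hF hok] at h
        convert h using 1
        abel
      obtain ⟨x₁, hx₁, hx₁v⟩ := H3.exists_norm_one_orth hF (n := 3) le_rfl hv0 hv
      have hx₁v' : ⟪x₁, v⟫ = 0 := hswap_zero hF hx₁v
      have hmult : ∀ l : F, l • v ∈ A := by
        intro l
        obtain ⟨s₁, hs₁⟩ := exists_ok hF hv hx₁v
        have hy1 := hroot _ _ hs₁ y hy
        obtain ⟨s₂, hs₂⟩ := exists_ok hF hv (x := ((-l / ⟪y, v⟫) ^ q) • x₁)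
          (by rw [hsmul_r hF, hx₁v, mul_zero])
        have hy2 := hroot _ _ hs₂ _ hy1
        simp only [hadd_l hF, hsub_l hF, hsmul_l hF, hsmul_r hF, hv, hx₁v, hx₁v', hx₁,
          qq hF, mul_zero, mul_one, sub_zero, add_zero, zero_smul, zero_sub] at hy2
        convert hy2 using 1
        rw [mul_div_cancel₀ _ hne, neg_smul, neg_neg]
      have hall : {x : Fin 3 → F | ⟪x, v⟫ = 0} ⊆ (A : Set (Fin 3 → F)) := by
        intro x (hx : ⟪x, v⟫ = 0)
        obtain ⟨s, hs⟩ := exists_ok hF hv (x := (⟪y, v⟫⁻¹) • x)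
          (by rw [hsmul_r hF, hswap_zero hF hx, mul_zero])
        have h := hroot _ _ hs y hy
        rw [smul_smul, mul_inv_cancel₀ hne, one_smul] at h
        have h2 := A.add_mem (A.sub_mem h (hmult (s * ⟪y, v⟫))) (hmult ⟪y, ⟪y, v⟫⁻¹ • x⟫)
        simpa using h2
      have h := Set.ncard_le_ncard hall (Set.toFinite _)
      rw [card_orth hF hv0, ← Nat.card_coe_set_eq (A : Set (Fin 3 → F))] at h
      have h34 : q ^ 3 < q ^ 4 := Nat.pow_lt_pow_right (by omega) (by norm_num)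
      change q ^ 4 ≤ a at h
      omega
    have hli : LinearIndependent F ![v, b] := by
      rw [LinearIndependent.pair_iff' hv0]
      intro c hc
      exact hb (by rw [← hc, hsmul_l hF, hsmul_r hF, hv, mul_zero, mul_zero])
    obtain ⟨s, hs, hvs, hbs⟩ := H3.exists_partner hF hli hv (hswap_zero hF (hperp b hbA)) 0
    obtain ⟨t, ht0, ht⟩ := H3.exists_trace_zero_ne_zero hF
    have hfixb : act (E hF s 0 t) b = b := by
      rw [act_trans hF hs ht, hbs, mul_zero, zero_smul, add_zero]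
    have hgv := hsu _ b hfixb hsb v hvA
    have hgi : ⟪act (E hF s 0 t) v, act (E hF s 0 t) v⟫ = 0 := by rw [form_act, hv]
    obtain ⟨l, hl⟩ := line_of_iso_three hF hv0 hv hgi (hswap_zero hF (hperp _ hgv))
    rw [act_trans hF hs ht, hvs, mul_one] at hl
    have := congrArg (fun u => Cfsg.hermForm 3 F q u v) hl
    have hsv : ⟪s, v⟫ = 1 := by rw [← hswap hF v s, hvs, one_pow]
    simp only [hadd_l hF (n := 3), hsmul_l hF (n := 3), hv, hsv, mul_one, mul_zero, zero_add] at this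
    exact ht0 this
  have hdisj : ((A : Set (Fin 3 → F)) \ {0}) =
      ((A : Set _) ∩ orbit (Lev D 3) v) ∪ ((A : Set _) ∩ orbit (Lev D 3) b) := by
    rw [hOv, hOb]
    ext x
    simp only [Set.mem_sdiff, Set.mem_singleton_iff, Set.mem_union, Set.mem_inter_iff, Set.mem_setOf_eq]
    constructor
    · rintro ⟨h1, h2⟩
      by_cases hx : ⟪x, x⟫ = 0
      · exact Or.inl ⟨h1, h2, hx⟩
      · exact Or.inr ⟨h1, hx⟩
    · rintro (⟨h1, h2, -⟩ | ⟨h1, h2⟩)
      · exact ⟨h1, h2⟩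
      · exact ⟨h1, fun e => h2 (by rw [e, hzero_l hF])⟩
  have hu := card_add_one A
  rw [hdisj, Set.ncard_union_eq (by
    rw [hOv, hOb, Set.disjoint_left]
    rintro x ⟨-, -, h1⟩ ⟨-, h2⟩
    exact h2 h1)] at hu
  have hcv := cover (G := Lev D 3) A v
  have hcb := cover (G := Lev D 3) A b
  obtain ⟨m₁, hm₁, he₁⟩ := hcv
  obtain ⟨m₂, hm₂, he₂⟩ := hcb
  have h1v : (orbit (Lev D 3) v).ncard ≤ k * ((A : Set _) ∩ orbit (Lev D 3) v).ncard :=
    he₁ ▸ Nat.le_mul_of_pos_right _ (hm₁ hvA)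
  have h1b : (orbit (Lev D 3) b).ncard ≤ k * ((A : Set _) ∩ orbit (Lev D 3) b).ncard :=
    he₂ ▸ Nat.le_mul_of_pos_right _ (hm₂ hbA)
  have hLi : (orbit (Lev D 3) v).ncard = (q ^ 2 - 1) * (q ^ 3 + 1) := by
    have h := card_iso hF (F := F) 3
    rw [pts_three] at h
    rw [hOv]
    have : 1 ≤ q ^ 2 := Nat.one_le_pow _ _ (by omega)
    zify [this]
    exact_mod_cast h
  have hq23 : 1 ≤ q ^ 2 := Nat.one_le_pow _ _ (by omega)
  have hq33 : 1 ≤ q ^ 3 := Nat.one_le_pow _ _ (by omega)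
  have hLb : (orbit (Lev D 3) b).ncard + (q ^ 2 - 1) * (q ^ 3 + 1) + 1 = q ^ 6 := by
    have hc := Set.ncard_add_ncard_compl (({0} : Set (Fin 3 → F)) ∪ orbit (Lev D 3) v)
    have e : (({0} : Set (Fin 3 → F)) ∪ orbit (Lev D 3) v)ᶜ = orbit (Lev D 3) b := by
      rw [hOv, hOb]
      ext x
      by_cases hx : x = 0
      · simp [hx, hzero_l hF]
      · simp [hx]
    rw [e, Set.ncard_union_eq (by rw [hOv]; simp), Set.ncard_singleton, hLi,
      Nat.card_eq_fintype_card, Fintype.card_fun, Fintype.card_fin, hF, ← pow_mul] at hc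
    rw [show 2 * 3 = 6 from rfl] at hc
    omega
  have hbig : q ^ 6 - 1 + (q ^ 2 - 1) * (q ^ 3 + 1) ≤ k * (a - 1) := by
    have hle : (q ^ 2 - 1) * (q ^ 3 + 1) ≤ (orbit (Lev D 3) b).ncard := by
      have h := card_orbit_noniso hF (k := 2) (by norm_num) (v := b) hb
      rw [if_pos (by decide)] at h
      have h2 : (orbit (Cfsg.SU 3 F q) b).ncard ≤ (orbit (Lev D 3) b).ncard := by
        refine Set.ncard_le_ncard ?_ (Set.toFinite _)
        rintro _ ⟨g, rfl⟩
        exact ⟨inclL D g, inclL_smul g b⟩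
      rw [h] at h2
      exact le_trans (Nat.mul_le_mul_right _ (Nat.sub_le _ _)) h2
    have ha' : a - 1 = ((A : Set _) ∩ orbit (Lev D 3) v).ncard + ((A : Set _) ∩ orbit (Lev D 3) b).ncard := by
      omega
    rw [ha', Nat.mul_add k]
    rcases cover_cases (G := Lev D 3) A hvA with h | h
    · rcases cover_cases (G := Lev D 3) A hbA with h' | h'
      · exact absurd ⟨h, h'⟩ hnot
      · change 2 * _ ≤ k * _ at h'
        omega
    · change 2 * _ ≤ k * _ at h
      omega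
  rw [heq] at hbig ⊢
  have hk3 : q ^ 3 + 2 * q ≤ k := by
    by_contra hlt
    push Not at hlt
    have h := hbig.trans (Nat.mul_le_mul_right _ (Nat.le_sub_one_of_lt hlt))
    have h6 : 1 ≤ q ^ 6 := Nat.one_le_pow _ _ (by omega)
    have h7 : 1 ≤ q ^ 3 + 2 * q := by omega
    zify [hq23, hq33, h6, h7] at h
    have h2 : (2 : ℤ) ≤ q := by exact_mod_cast hq
    have e : ((q : ℤ) ^ 6 - 1 + (q ^ 2 - 1) * (q ^ 3 + 1)) - (q ^ 3 + 2 * q - 1) * (q ^ 3 - 1) =
        q * q ^ 4 - 2 * q ^ 4 + q ^ 3 + q * q + 2 * q - 3 := by ring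
    linarith [mul_le_mul_of_nonneg_right h2 (pow_nonneg (by linarith : (0 : ℤ) ≤ q) 4),
      pow_nonneg (by linarith : (0 : ℤ) ≤ q) 3, mul_le_mul h2 h2 (by norm_num) (by linarith)]
  calc q ^ 3 * (q ^ 2 + 2) = (q ^ 3 + 2 * q) * q ^ 2 := by ring
    _ ≤ k * q ^ 2 := Nat.mul_le_mul_right _ hk3
where
  form_lev' {D : Dat F q} (g : Lev D 3) (v w : Fin 3 → F) :
      ⟪g • v, g • w⟫ = cc g ^ (q + 1) * ⟪v, w⟫ := by
    rw [← D.form_up (g • v), act_up_smul, act_up_smul, hsmul_l D.hF, hsmul_r D.hF, form_act, D.form_up,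
      qq D.hF, pow_succ]
    ring

/-- The bound used for the fixed points. -/
theorem big_three (hF : Fintype.card F = q ^ 2) {C : AddSubgroup (Fin 3 → F)} (h0 : C ≠ ⊥) :
    q ^ 2 * (q ^ 3 + 1) ≤ Nat.card (orbit (Cfsg.SU 3 F q) C) * Nat.card C := by
  classical
  have hq := H3.two_le_q hF
  set k := Nat.card (orbit (Cfsg.SU 3 F q) C)
  set c := Nat.card C with hc
  have hk : ∀ {x : ℕ}, x ≤ k * (c - 1) → x ≤ k * c := fun h => h.trans (Nat.mul_le_mul_left _ (Nat.sub_le _ _))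
  have hnon : ∀ v ∈ C, ⟪v, v⟫ ≠ 0 → q ^ 2 * (q ^ 3 + 1) ≤ k * c := by
    intro v hv hne
    refine hk (le_trans (le_of_eq ?_) (orbit_le_cover C hv fun e => hne (by rw [e, hzero_l hF])))
    rw [card_orbit_noniso hF (k := 2) (by norm_num) hne, if_pos (by decide)]
  by_cases hall : ∀ x ∈ C, ⟪x, x⟫ = 0
  · have hle := card_le_of_all_iso hF C hall
    obtain ⟨v, hv, hv0⟩ : ∃ v ∈ C, v ≠ 0 := by
      by_contra h; push Not at h; exact h0 (eq_bot_iff.mpr fun v hv => by simp [h v hv])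
    have h := orbit_le_cover (G := Cfsg.SU 3 F q) C hv hv0
    rw [card_orbit_iso hF le_rfl hv0 (hall v hv), pts_three] at h
    change _ ≤ k * (c - 1) at h
    obtain ⟨d, hd⟩ : ∃ d, c = d + 1 := ⟨c - 1, by have : 1 ≤ c := Nat.card_pos; omega⟩
    rw [hd, Nat.add_sub_cancel] at h
    change c ≤ q ^ 2 at hle
    rw [hd] at hle ⊢
    rcases Nat.eq_zero_or_pos d with rfl | hd0
    · rw [mul_zero, Nat.le_zero, mul_eq_zero] at h
      have h4 := Nat.pow_le_pow_left hq 2
      omega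
    refine Nat.le_of_mul_le_mul_right ?_ hd0
    calc q ^ 2 * (q ^ 3 + 1) * d ≤ (q ^ 2 - 1) * (q ^ 3 + 1) * (d + 1) := by
          rw [mul_comm (q ^ 2) _, mul_comm (q ^ 2 - 1) _, mul_assoc, mul_assoc]
          refine Nat.mul_le_mul_left _ ?_
          zify [Nat.one_le_pow 2 q (by omega)]
          have : (d : ℤ) + 1 ≤ (q : ℤ) ^ 2 := by exact_mod_cast hle
          nlinarith
      _ ≤ k * d * (d + 1) := Nat.mul_le_mul_right _ h
      _ = k * (d + 1) * d := by ring
  · push Not at hall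
    obtain ⟨v, hv, hne⟩ := hall
    exact hnon v hv hne

end Cfsg.Agent.H2.MinU
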